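import Cfsg.Agent.Lib.CharDegreesTheory.TwoDegrees

/-!
# Bounded degrees: counting classes, and constituents
-/

set_option autoImplicit false
set_option linter.style.haveILetI false
set_option linter.unusedSectionVars false

namespace CfsgLib.CharDegreesTheory.DegreeBound

open Cfsg CfsgLib.CharTheory CfsgLib.Clifford CfsgLib.CharDegreesTheory.SmallDegrees Finset
open Module (finrank)
open scoped ComplexConjugate commutatorElement

universe u

variable {G : Type u} [Group G] [Finite G] {b : ℕ}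

/-- All irreducible degrees are at most `b`. -/
def Bd (b : ℕ) (G : Type u) [Group G] : Prop :=
  ∀ χ : IrrCharacter G, charDegree (χ : G → ℂ) ≤ b

theorem Bd.subgroup (h : Bd b G) (K : Subgroup G) : Bd b K := fun θ =>
  Nat.lt_succ_iff.1 (DegLT.subgroup (p := b + 1) (fun χ => Nat.lt_succ_iff.2 (h χ)) K θ)

theorem Bd.quotient (h : Bd b G) (K : Subgroup G) [K.Normal] : Bd b (G ⧸ K) := fun θ =>
  h ⟨_, isIrrCharacter_comp θ.2 (QuotientGroup.mk'_surjective K)⟩

theorem natDegree_pos (χ : IrrCharacter G) : 0 < charDegree (χ : G → ℂ) := (charDegree_spec' χ).2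

/-- The squares of the degrees sum to the order. -/
theorem card_eq_sum [Fintype (IrrCharacter G)] :
    Nat.card G = ∑ χ : IrrCharacter G, charDegree (χ : G → ℂ) ^ 2 := by
  have h := sum_degree_sq (G := G)
  simp only [charDegree_one] at h
  exact_mod_cast h.symm

theorem card_le_sq_mul (h : Bd b G) : Nat.card G ≤ b ^ 2 * Nat.card (IrrCharacter G) := by
  haveI := Fintype.ofFinite (IrrCharacter G)
  rw [card_eq_sum, Nat.card_eq_fintype_card, mul_comm]
  refine le_trans (sum_le_card_nsmul univ _ (b ^ 2) fun χ _ => Nat.pow_le_pow_left (h χ) 2) ?_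
  simp

/-- The centraliser orders sum to the class number times the order. -/
theorem sum_card_centralizer [Fintype G] :
    ∑ x : G, Nat.card (Subgroup.centralizer ({x} : Set G))
      = Nat.card (IrrCharacter G) * Nat.card G := by
  classical
  haveI := Fintype.ofFinite (IrrCharacter G)
  have h1 : ∀ x : G, (Nat.card (Subgroup.centralizer ({x} : Set G)) : ℂ)
      = ∑ χ : IrrCharacter G, (χ : G → ℂ) x * conj ((χ : G → ℂ) x) := fun x => by
    rw [sum_mul_conj x x, if_pos (IsConj.refl x)]
  have h2 : ∀ χ : IrrCharacter G, ∑ x : G, (χ : G → ℂ) x * conj ((χ : G → ℂ) x) = Nat.card G := by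
    intro χ
    have := classInner_self_of_isIrr χ.2
    rw [classInner, inv_mul_eq_one₀ (Nat.cast_ne_zero.2 Nat.card_pos.ne')] at this
    exact this.symm
  have : ((∑ x : G, Nat.card (Subgroup.centralizer ({x} : Set G)) : ℕ) : ℂ)
      = ((Nat.card (IrrCharacter G) * Nat.card G : ℕ) : ℂ) := by
    push_cast
    simp only [h1]
    rw [sum_comm]
    simp only [h2, sum_const, card_univ, nsmul_eq_mul, Nat.card_eq_fintype_card]
  exact_mod_cast this

/-- If all noncentral classes exceed `S`, there are few classes. -/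
theorem class_count (S : ℕ)
    (hS : ∀ x : G, x ∉ Subgroup.center G → S < (Subgroup.centralizer ({x} : Set G)).index) :
    Nat.card (IrrCharacter G) * (S + 1) ≤ S * Nat.card (Subgroup.center G) + Nat.card G := by
  classical
  haveI := Fintype.ofFinite G
  have hle : ∀ x : G, Nat.card (Subgroup.centralizer ({x} : Set G)) * (S + 1)
      ≤ Nat.card G + (if x ∈ Subgroup.center G then S * Nat.card G else 0) := by
    intro x
    by_cases hx : x ∈ Subgroup.center G
    · rw [if_pos hx]
      calc Nat.card (Subgroup.centralizer ({x} : Set G)) * (S + 1) ≤ Nat.card G * (S + 1) :=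
            Nat.mul_le_mul_right _ (Subgroup.card_le_card_group _)
        _ = Nat.card G + S * Nat.card G := by ring
    · rw [if_neg hx, add_zero]
      calc Nat.card (Subgroup.centralizer ({x} : Set G)) * (S + 1)
          ≤ Nat.card (Subgroup.centralizer ({x} : Set G))
              * (Subgroup.centralizer ({x} : Set G)).index := Nat.mul_le_mul_left _ (hS x hx)
        _ = Nat.card G := Subgroup.card_mul_index _
  have h1 := sum_le_sum (s := (univ : Finset G)) fun x _ => hle x
  rw [← sum_mul, sum_card_centralizer, sum_add_distrib, sum_const, card_univ, ← sum_filter,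
    sum_const, smul_eq_mul, smul_eq_mul, ← Fintype.card_subtype, ← Nat.card_eq_fintype_card,
    ← Nat.card_eq_fintype_card] at h1
  refine Nat.le_of_mul_le_mul_right (c := Nat.card G) ?_ Nat.card_pos
  calc Nat.card (IrrCharacter G) * (S + 1) * Nat.card G
      = Nat.card (IrrCharacter G) * Nat.card G * (S + 1) := by ring
    _ ≤ _ := h1
    _ = (S * Nat.card (Subgroup.center G) + Nat.card G) * Nat.card G := by ring

/-- An element gives an abelian subgroup containing the centre. -/
theorem exists_abelian_of_elem (x : G) :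
    ∃ A : Subgroup G, (∀ a ∈ A, ∀ c ∈ A, a * c = c * a) ∧ x ∈ A ∧
      A.index * orderOf (x : G ⧸ Subgroup.center G) = (Subgroup.center G).index := by
  refine ⟨(Subgroup.zpowers (x : G ⧸ Subgroup.center G)).comap (QuotientGroup.mk' _), ?_,
    Subgroup.mem_zpowers _, ?_⟩
  · have key : ∀ a ∈ (Subgroup.zpowers (x : G ⧸ Subgroup.center G)).comap (QuotientGroup.mk' _),
        ∃ i : ℤ, ∃ z ∈ Subgroup.center G, a = x ^ i * z := by
      intro a ha
      obtain ⟨i, hi⟩ := Subgroup.mem_zpowers_iff.1 (Subgroup.mem_comap.1 ha)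
      exact ⟨i, (x ^ i)⁻¹ * a, by rw [← QuotientGroup.eq, QuotientGroup.mk_zpow]; exact hi,
        (mul_inv_cancel_left _ _).symm⟩
    intro a ha c hc
    obtain ⟨i, z, hz, rfl⟩ := key a ha
    obtain ⟨j, w, hw, rfl⟩ := key c hc
    have hzc : ∀ {z : G}, z ∈ Subgroup.center G → ∀ g, Commute z g := fun hz g =>
      (Subgroup.mem_center_iff.1 hz g).symm
    exact (((Commute.refl x).zpow_zpow i j).mul_right (hzc hw _).symm).mul_left
      ((hzc hz _))
  · rw [Subgroup.index_comap_of_surjective _ (QuotientGroup.mk'_surjective _), ← Nat.card_zpowers,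
      Subgroup.index_mul_card]
    rfl

theorem two_mul_index_le {x : G} (hx : x ∉ Subgroup.center G) :
    2 * (Subgroup.centralizer ({x} : Set G)).index ≤ (Subgroup.center G).index := by
  obtain ⟨A, hA, hxA, hidx⟩ := exists_abelian_of_elem x
  have hle : A ≤ Subgroup.centralizer ({x} : Set G) := fun a ha =>
    Subgroup.mem_centralizer_iff.2 fun y hy => by
      rw [Set.mem_singleton_iff.1 hy]; exact hA x hxA a ha
  have h2 : 2 ≤ orderOf (x : G ⧸ Subgroup.center G) := by
    have h1 : orderOf (x : G ⧸ Subgroup.center G) ≠ 1 := fun e =>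
      hx ((QuotientGroup.eq_one_iff x).1 (orderOf_eq_one_iff.1 e))
    have h0 := orderOf_pos (x : G ⧸ Subgroup.center G)
    omega
  calc 2 * (Subgroup.centralizer ({x} : Set G)).index ≤ 2 * A.index :=
        Nat.mul_le_mul_left _ (Nat.le_of_dvd (Nat.pos_of_ne_zero Subgroup.index_ne_zero_of_finite)
          (Subgroup.index_dvd_of_le hle))
    _ ≤ orderOf (x : G ⧸ Subgroup.center G) * A.index := Nat.mul_le_mul_right _ h2
    _ = _ := by rw [mul_comm, hidx]

theorem index_center_bound (h : Bd b G) (S : ℕ)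
    (hS : ∀ x : G, x ∉ Subgroup.center G → S < (Subgroup.centralizer ({x} : Set G)).index) :
    (Subgroup.center G).index * (S + 1) ≤ b ^ 2 * (S + (Subgroup.center G).index) := by
  have h1 := class_count S hS
  have h2 := card_le_sq_mul h
  have hN := (Subgroup.center G).card_mul_index
  refine Nat.le_of_mul_le_mul_left ?_ (Nat.card_pos : 0 < Nat.card (Subgroup.center G))
  calc Nat.card (Subgroup.center G) * ((Subgroup.center G).index * (S + 1))
      = Nat.card G * (S + 1) := by rw [← mul_assoc, hN]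
    _ ≤ b ^ 2 * Nat.card (IrrCharacter G) * (S + 1) := Nat.mul_le_mul_right _ h2
    _ ≤ b ^ 2 * (S * Nat.card (Subgroup.center G) + Nat.card G) := by
        rw [mul_assoc]; exact Nat.mul_le_mul_left _ h1
    _ = _ := by rw [← hN]; ring

/-- A class of size at most `3b²/2`. -/
theorem exists_small_class (h : Bd b G) (hG : Subgroup.center G ≠ ⊤) :
    ∃ x : G, x ∉ Subgroup.center G ∧
      2 * (Subgroup.centralizer ({x} : Set G)).index ≤ 3 * b ^ 2 := by
  by_contra hc
  push Not at hc
  obtain ⟨x₀, -, hx₀⟩ := SetLike.exists_of_lt hG.lt_top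
  have h1 := index_center_bound h (3 * b ^ 2 / 2) fun x hx => by
    have := hc x hx
    omega
  have h2 := two_mul_index_le hx₀
  have h3 := hc x₀ hx₀
  have hs : 2 * (3 * b ^ 2 / 2) ≤ 3 * b ^ 2 := Nat.mul_div_le _ _
  have hs' : 3 * b ^ 2 ≤ 2 * (3 * b ^ 2 / 2) + 1 := by omega
  nlinarith

/-- A class of size at most `b²`, unless the centre has index at most `b⁴`. -/
theorem exists_class_le_sq (h : Bd b G) (hN : b ^ 4 < (Subgroup.center G).index) :
    ∃ x : G, x ∉ Subgroup.center G ∧ (Subgroup.centralizer ({x} : Set G)).index ≤ b ^ 2 := by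
  by_contra hc
  push Not at hc
  have h1 := index_center_bound h (b ^ 2) hc
  nlinarith

/-! ### Constituents -/

/-- The decomposition of a restriction. -/
theorem exists_mult (H : Subgroup G) [Fintype H] [Fintype (IrrCharacter H)] (χ : IrrCharacter G) :
    ∃ m : IrrCharacter H → ℕ,
      (fun h : H => (χ : G → ℂ) h) = ∑ φ : IrrCharacter H, (m φ : ℂ) • (φ : H → ℂ) ∧
      (∀ φ : IrrCharacter H, classInner (fun h : H => (χ : G → ℂ) h) (φ : H → ℂ) = m φ) ∧
      charDegree (χ : G → ℂ) = ∑ φ : IrrCharacter H, m φ * charDegree (φ : H → ℂ) := by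
  classical
  obtain ⟨m, hm⟩ := IsCharacter.exists_sum (G := H)
    (CfsgLib.Coherence.isCharacter_comp (IsIrrCharacter.isCharacter χ.2) H.subtype)
  have hm' : (fun h : H => (χ : G → ℂ) h) = ∑ φ : IrrCharacter H, (m φ : ℂ) • (φ : H → ℂ) := hm
  refine ⟨m, hm', fun φ => by rw [hm']; exact classInner_sum_irr _ φ, ?_⟩
  have h1 := congrFun hm' 1
  simp only [Finset.sum_apply, Pi.smul_apply, smul_eq_mul, OneMemClass.coe_one, charDegree_one] at h1
  exact_mod_cast h1

/-- A constituent of full degree is the whole restriction. -/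
theorem res_eq_of_degree_le (H : Subgroup G) [Fintype H] (φ : IrrCharacter H) (χ : IrrCharacter G)
    (h : classInner (fun h : H => (χ : G → ℂ) h) (φ : H → ℂ) ≠ 0)
    (hd : charDegree (χ : G → ℂ) ≤ charDegree (φ : H → ℂ)) (x : H) :
    (χ : G → ℂ) x = (φ : H → ℂ) x := by
  classical
  haveI := Fintype.ofFinite (IrrCharacter H)
  obtain ⟨m, hm, hin, hdeg⟩ := exists_mult H χ
  have hmφ : m φ ≠ 0 := fun e => h (by rw [hin, e, Nat.cast_zero])
  rw [← Finset.add_sum_erase _ _ (mem_univ φ)] at hdeg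
  have h0 : ∑ ψ ∈ univ.erase φ, m ψ * charDegree (ψ : H → ℂ) = 0 := by
    have := Nat.le_mul_of_pos_left (charDegree (φ : H → ℂ)) (Nat.pos_of_ne_zero hmφ)
    omega
  have h1 : m φ = 1 := by
    have h3 : m φ * charDegree (φ : H → ℂ) ≤ 1 * charDegree (φ : H → ℂ) := by omega
    have := Nat.le_of_mul_le_mul_right h3 (natDegree_pos φ)
    omega
  have hz : ∀ ψ, ψ ≠ φ → m ψ = 0 := fun ψ hψ => by
    have := sum_eq_zero_iff.1 h0 ψ (mem_erase.2 ⟨hψ, mem_univ _⟩)
    exact (Nat.mul_eq_zero.1 this).resolve_right (natDegree_pos ψ).ne'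
  have := congrFun hm x
  rw [Finset.sum_apply, sum_eq_single φ (fun ψ _ hψ => by
    rw [Pi.smul_apply, hz ψ hψ, Nat.cast_zero, zero_smul]) (fun e => absurd (mem_univ _) e)] at this
  simpa [h1] using this

/-- Scalar values pass to constituents. -/
theorem scalar_constituent (H : Subgroup G) [Fintype H] (θ : IrrCharacter H) (χ : IrrCharacter G)
    (h : classInner (fun h : H => (χ : G → ℂ) h) (θ : H → ℂ) ≠ 0) (k : H) {ω : ℂ} (hω : ‖ω‖ = 1)
    (hk : (χ : G → ℂ) k = ω * (χ : G → ℂ) 1) : (θ : H → ℂ) k = ω * (θ : H → ℂ) 1 := by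
  classical
  haveI := Fintype.ofFinite (IrrCharacter H)
  obtain ⟨m, hm, hin, hdeg⟩ := exists_mult H χ
  have hmθ : m θ ≠ 0 := fun e => h (by rw [hin, e, Nat.cast_zero])
  have hconj : conj ω * ω = 1 := by rw [Complex.conj_mul', hω]; simp
  have h1 := congrArg (fun z => (conj ω * z).re) (congrFun hm k)
  simp only [hk, ← mul_assoc, hconj, one_mul, Finset.sum_apply, Pi.smul_apply, smul_eq_mul,
    Finset.mul_sum, Complex.re_sum] at h1
  have h2 : ∑ φ : IrrCharacter H, (m φ : ℝ) * (conj ω * (φ : H → ℂ) k).re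
      = ∑ φ : IrrCharacter H, (m φ : ℝ) * (charDegree (φ : H → ℂ) : ℝ) := by
    rw [charDegree_one, Complex.natCast_re, hdeg, Nat.cast_sum] at h1
    simp only [Nat.cast_mul] at h1
    rw [h1]
    refine sum_congr rfl fun φ _ => ?_
    rw [← Complex.re_ofReal_mul]
    congr 1
    push_cast
    ring
  have hn : ∀ φ : IrrCharacter H, ‖conj ω * (φ : H → ℂ) k‖ ≤ (charDegree (φ : H → ℂ) : ℝ) := by
    intro φ
    rw [norm_mul, RCLike.norm_conj, hω, one_mul]
    have := IsCharacter.norm_le (IsIrrCharacter.isCharacter φ.2) k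
    rwa [charDegree_one, Complex.natCast_re] at this
  have h3 := (Finset.sum_eq_sum_iff_of_le fun φ _ =>
    mul_le_mul_of_nonneg_left ((Complex.re_le_norm _).trans (hn φ)) (Nat.cast_nonneg _)).1 h2 θ
    (mem_univ _)
  have h5 : (conj ω * (θ : H → ℂ) k).re = (charDegree (θ : H → ℂ) : ℝ) :=
    mul_left_cancel₀ (by exact_mod_cast hmθ) h3
  have h6 : conj ω * (θ : H → ℂ) k = (charDegree (θ : H → ℂ) : ℂ) := by
    have h7 : (conj ω * (θ : H → ℂ) k).re = ‖conj ω * (θ : H → ℂ) k‖ :=
      le_antisymm (Complex.re_le_norm _) (h5 ▸ hn θ)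
    refine Complex.ext (by rw [Complex.natCast_re]; exact h5) ?_
    rw [Complex.natCast_im]
    exact (Complex.le_def.1 (Complex.re_eq_norm.1 h7)).2.symm
  rw [charDegree_one, ← h6, ← mul_assoc, mul_comm ω, hconj, one_mul]

/-- Constituents of constituents. -/
theorem classInner_trans {D H : Subgroup G} [Fintype H] [Fintype D] (hDH : D ≤ H) (χ : IrrCharacter G)
    (η : IrrCharacter H) (ν : IrrCharacter D)
    (h1 : classInner (fun h : H => (χ : G → ℂ) h) (η : H → ℂ) ≠ 0)
    (h2 : classInner (fun d : D => (η : H → ℂ) ⟨(d : G), hDH d.2⟩) (ν : D → ℂ) ≠ 0) :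
    classInner (fun d : D => (χ : G → ℂ) d) (ν : D → ℂ) ≠ 0 := by
  classical
  haveI := Fintype.ofFinite (IrrCharacter H)
  obtain ⟨m, hm, hin, -⟩ := exists_mult H χ
  have hk : ∀ φ : IrrCharacter H, ∃ k : ℕ,
      classInner (fun d : D => (φ : H → ℂ) ⟨(d : G), hDH d.2⟩) (ν : D → ℂ) = k := fun φ =>
    IsCharacter.exists_classInner_eq_nat
      (CfsgLib.Coherence.isCharacter_comp (IsIrrCharacter.isCharacter φ.2) (Subgroup.inclusion hDH)) ν
  choose k hk using hk
  have e : (fun d : D => (χ : G → ℂ) d)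
      = ∑ φ : IrrCharacter H, (m φ : ℂ) • fun d : D => (φ : H → ℂ) ⟨(d : G), hDH d.2⟩ := by
    funext d
    have := congrFun hm ⟨(d : G), hDH d.2⟩
    simpa [Finset.sum_apply] using this
  rw [e, classInner_sum_left]
  simp only [classInner_smul_left, hk, ← Nat.cast_mul, ← Nat.cast_sum, Nat.cast_ne_zero]
  intro h0
  have := sum_eq_zero_iff.1 h0 η (mem_univ _)
  rcases Nat.mul_eq_zero.1 this with e | e
  · exact h1 (by rw [hin, e, Nat.cast_zero])
  · exact h2 (by rw [hk, e, Nat.cast_zero])

/-- Nontrivial on `D`. -/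
def NT (D : Subgroup G) (χ : G → ℂ) : Prop := ∃ d ∈ D, χ d ≠ χ 1

/-- A constituent trivial on a normal subgroup forces the character to be. -/
theorem nt_of_constituent {D H : Subgroup G} [D.Normal] [Fintype H] (hDH : D ≤ H) (χ : IrrCharacter G)
    (η : IrrCharacter H) (h : classInner (fun h : H => (χ : G → ℂ) h) (η : H → ℂ) ≠ 0)
    (hχ : NT D (χ : G → ℂ)) : NT (D.subgroupOf H) (η : H → ℂ) := by
  classical
  haveI := Fintype.ofFinite G
  haveI := Fintype.ofFinite D
  by_contra hη
  simp only [NT] at hη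
  push Not at hη
  have h2 : classInner (fun d : D => (η : H → ℂ) ⟨(d : G), hDH d.2⟩) (trivIrr D : D → ℂ) ≠ 0 := by
    rw [show (fun d : D => (η : H → ℂ) ⟨(d : G), hDH d.2⟩)
        = (η : H → ℂ) 1 • (trivIrr D : D → ℂ) from funext fun d => by
      rw [Pi.smul_apply, trivIrr_apply, smul_eq_mul, mul_one]
      exact hη _ (Subgroup.mem_subgroupOf.2 d.2), classInner_smul_left,
      classInner_self_of_isIrr (trivIrr D).2, mul_one]
    exact apply_one_ne_zero_of_isIrr η.2
  have h3 := classInner_trans hDH χ η (trivIrr D) h h2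
  have hinv : ∀ g : G, conjChar D (trivIrr D : D → ℂ) g = trivIrr D := fun g => funext fun d => by
    rw [conjChar_apply, trivIrr_apply, trivIrr_apply]
  have hres := res_eq_of_invariant D χ.2 (trivIrr D).2 hinv h3
  obtain ⟨d, hd, hne⟩ := hχ
  have e1 := congrFun hres ⟨d, hd⟩
  have e2 := congrFun hres 1
  simp only [Pi.smul_apply, trivIrr_apply, OneMemClass.coe_one] at e1 e2
  exact hne (e1.trans e2.symm)

theorem nt_of_res {D H : Subgroup G} [Fintype H] (χ : IrrCharacter G) (η : IrrCharacter H)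
    (h : classInner (fun h : H => (χ : G → ℂ) h) (η : H → ℂ) ≠ 0)
    (hη : NT (D.subgroupOf H) (η : H → ℂ)) : NT D (χ : G → ℂ) := by
  obtain ⟨d, hd, hne⟩ := hη
  refine ⟨d, hd, fun e => hne ?_⟩
  exact constituent_apply_eq (IsIrrCharacter.isCharacter χ.2) η.2 h e

/-- Scalar action and commutators. -/
theorem norm_eq_iff_commutator (χ : IrrCharacter G) (y : G) :
    ‖(χ : G → ℂ) y‖ = ((χ : G → ℂ) 1).re ↔ ∀ g : G, (χ : G → ℂ) ⁅y, g⁆ = (χ : G → ℂ) 1 := by
  obtain ⟨n, ρ, hρ, hρχ⟩ := id χ.2
  rw [← hρχ]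
  have hc : ∀ g, ρ.character ⁅y, g⁆ = ρ.character 1 ↔ ρ y * ρ g = ρ g * ρ y := by
    intro g
    rw [ρ.char_one, character_eq_finrank_iff, commutatorElement_def, ← Module.End.one_eq_id,
      show y * g * y⁻¹ * g⁻¹ = y * g * (g * y)⁻¹ by group, map_mul, ← map_mul ρ y g,
      ← map_mul ρ g y]
    refine ⟨fun h => ?_, fun h => ?_⟩
    · have := congrArg (· * ρ (g * y)) h
      simpa only [mul_assoc, ← map_mul, inv_mul_cancel, map_one, mul_one, one_mul] using this
    · rw [h, ← map_mul, mul_inv_cancel, map_one]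
  simp only [hc]
  rw [ρ.char_one, Complex.natCast_re, norm_character_eq_iff ρ y]
  exact ⟨fun ⟨ω, hω⟩ g => by rw [hω, smul_mul_assoc, mul_smul_comm]; rfl,
    fun h => exists_smul_of_commute ρ (ρ y) h⟩

end CfsgLib.CharDegreesTheory.DegreeBound
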