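import Cfsg.Agent.Lib.CharDegreesTheory.DegreeBound.Basic

/-!
# Bounded degrees: descending to a linear character
-/

set_option autoImplicit false
set_option linter.style.haveILetI false
set_option linter.unusedSectionVars false

namespace CfsgLib.CharDegreesTheory.DegreeBound

open Cfsg CfsgLib.CharTheory CfsgLib.Clifford CfsgLib.CharDegreesTheory.SmallDegrees Finset
open scoped ComplexConjugate commutatorElement

universe u

variable {G : Type u} [Group G] [Finite G] {b : ℕ}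

/-- The characters nontrivial on `D` have degree at most `β`. -/
def BdOn (β : ℕ) (D : Subgroup G) : Prop :=
  ∀ χ : IrrCharacter G, NT D (χ : G → ℂ) → charDegree (χ : G → ℂ) ≤ β

theorem norm_hom_apply {A : Type*} [Group A] [Finite A] (l : A →* ℂˣ) (a : A) : ‖(l a : ℂ)‖ = 1 :=
  Complex.norm_eq_one_of_pow_eq_one (n := orderOf a) (by
    rw [← Units.val_pow_eq_pow_val, ← map_pow, pow_orderOf_eq_one, map_one, Units.val_one])
    (orderOf_pos a).ne'

/-- If the constituents have smaller degree, one has at most half the degree. -/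
theorem exists_half (H : Subgroup G) [Fintype H] (χ : IrrCharacter G)
    (h : ∀ ψ : IrrCharacter H, classInner (fun h : H => (χ : G → ℂ) h) (ψ : H → ℂ) ≠ 0 →
      charDegree (ψ : H → ℂ) < charDegree (χ : G → ℂ)) :
    ∃ ψ : IrrCharacter H, classInner (fun h : H => (χ : G → ℂ) h) (ψ : H → ℂ) ≠ 0 ∧
      2 * charDegree (ψ : H → ℂ) ≤ charDegree (χ : G → ℂ) := by
  classical
  haveI := Fintype.ofFinite G
  haveI := Fintype.ofFinite (IrrCharacter H)
  obtain ⟨m, -, hin, hdeg⟩ := exists_mult H χ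
  obtain ⟨ψ, hψ⟩ := CfsgLib.CharTheory.exists_constituent H (IsIrrCharacter.isCharacter χ.2)
    (apply_one_ne_zero_of_isIrr χ.2)
  by_contra hc
  push Not at hc
  have h1 := hc ψ hψ
  have h2 := h ψ hψ
  have hmψ : m ψ ≠ 0 := fun e => hψ (by rw [hin, e, Nat.cast_zero])
  rw [← Finset.add_sum_erase _ _ (mem_univ ψ)] at hdeg
  have h4 : m ψ = 1 := by
    by_contra hne
    have h3 : 2 * charDegree (ψ : H → ℂ) ≤ m ψ * charDegree (ψ : H → ℂ) :=
      Nat.mul_le_mul_right _ (by omega)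
    omega
  rw [h4, one_mul] at hdeg
  obtain ⟨ψ', hψ', hne⟩ := exists_ne_zero_of_sum_ne_zero
    (show ∑ φ ∈ univ.erase ψ, m φ * charDegree (φ : H → ℂ) ≠ 0 by omega)
  have h5 : classInner (fun h : H => (χ : G → ℂ) h) (ψ' : H → ℂ) ≠ 0 := by
    rw [hin, Nat.cast_ne_zero]
    exact fun e => hne (by rw [e, zero_mul])
  have h6 := hc ψ' h5
  have h7 : charDegree (ψ' : H → ℂ) ≤ ∑ φ ∈ univ.erase ψ, m φ * charDegree (φ : H → ℂ) :=
    le_trans (Nat.le_mul_of_pos_left _ (Nat.pos_of_ne_zero fun e => hne (by rw [e, zero_mul])))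
      (single_le_sum (f := fun φ : IrrCharacter H => m φ * charDegree (φ : H → ℂ))
        (fun _ _ => Nat.zero_le _) hψ')
  omega

/-- Either `D` acts by scalars, or Clifford theory gives a smaller character over a small orbit. -/
theorem scalar_or_orbit (D : Subgroup G) [D.Normal] (hab : ∀ a ∈ D, ∀ c ∈ D, a * c = c * a)
    (μ : IrrCharacter G) (hμ : NT D (μ : G → ℂ)) :
    (∀ d ∈ D, ‖(μ : G → ℂ) d‖ = ((μ : G → ℂ) 1).re) ∨
      ∃ (V : Subgroup G) (ψ : IrrCharacter V), D ≤ V ∧ NT (D.subgroupOf V) (ψ : V → ℂ) ∧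
        2 * charDegree (ψ : V → ℂ) ≤ charDegree (μ : G → ℂ) ∧ V.index ≤ charDegree (μ : G → ℂ) := by
  classical
  haveI := Fintype.ofFinite G
  haveI := Fintype.ofFinite D
  obtain ⟨ν, hν⟩ := CfsgLib.CharTheory.exists_constituent D (IsIrrCharacter.isCharacter μ.2)
    (apply_one_ne_zero_of_isIrr μ.2)
  have hν1 : (ν : D → ℂ) 1 = 1 :=
    apply_one_eq_one_of_comm (fun a c => Subtype.ext (hab a a.2 c c.2)) ν.2
  obtain ⟨l, hl⟩ := exists_hom_of_degree_one ν.2 hν1
  set T := inertia D (ν : D → ℂ) with hT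
  by_cases hTtop : T = ⊤
  · left
    intro d hd
    have hinv : ∀ g : G, conjChar D (ν : D → ℂ) g = ν := fun g =>
      (mem_inertia D (ν : D → ℂ) g).1 (by rw [← hT, hTtop]; exact Subgroup.mem_top g)
    have hres := res_eq_of_invariant D μ.2 ν.2 hinv hν
    have e1 := congrFun hres ⟨d, hd⟩
    have e2 := congrFun hres 1
    simp only [Pi.smul_apply, smul_eq_mul, OneMemClass.coe_one, hν1, mul_one] at e1 e2
    rw [e1, ← e2, hl, norm_mul, norm_hom_apply, mul_one, charDegree_one, Complex.norm_natCast,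
      Complex.natCast_re]
  · right
    haveI := Fintype.ofFinite T
    have hDT := le_inertia D (IsIrrCharacter.isClassFunction ν.2)
    obtain ⟨ψ, hψ, hind, hmult⟩ := exists_indFun_inertia_eq ν.2 (mem_inertia D (ν : D → ℂ)) hDT μ.2 hν
    have hd : charDegree (μ : G → ℂ) = T.index * charDegree ψ := by
      have := CfsgLib.Frobenius.indFun_one T ψ
      rw [hind, charDegree_one,
        show ψ 1 = (charDegree ψ : ℂ) from charDegree_one (⟨ψ, hψ⟩ : IrrCharacter T)] at this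
      exact_mod_cast this
    have hpos : 0 < charDegree ψ := natDegree_pos (⟨ψ, hψ⟩ : IrrCharacter T)
    refine ⟨T, ⟨ψ, hψ⟩, hDT, ?_, ?_, ?_⟩
    · by_contra hc
      simp only [NT] at hc
      push Not at hc
      have hνne : ν ≠ trivIrr D := by
        intro e
        have hinv : ∀ g : G, conjChar D (trivIrr D : D → ℂ) g = trivIrr D := fun g => funext fun x => by
          rw [conjChar_apply, trivIrr_apply, trivIrr_apply]
        have hres := res_eq_of_invariant D μ.2 (trivIrr D).2 hinv (e ▸ hν)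
        obtain ⟨d, hd, hne⟩ := hμ
        have e1 := congrFun hres ⟨d, hd⟩
        have e2 := congrFun hres 1
        simp only [Pi.smul_apply, trivIrr_apply, OneMemClass.coe_one] at e1 e2
        exact hne (e1.trans e2.symm)
      apply hν
      rw [← hmult, show (fun n : D => ψ ⟨(n : G), hDT n.2⟩) = ψ 1 • (trivIrr D : D → ℂ) from
        funext fun x => by
          rw [Pi.smul_apply, trivIrr_apply, smul_eq_mul, mul_one]
          exact hc _ (Subgroup.mem_subgroupOf.2 x.2),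
        classInner_smul_left, classInner_eq_zero_of_ne (trivIrr D).2 ν.2
          (fun e => hνne (Subtype.ext e).symm), mul_zero]
    · show 2 * charDegree ψ ≤ _
      rw [hd]
      exact Nat.mul_le_mul_right _ (Subgroup.one_lt_index_of_ne_top hTtop)
    · show T.index ≤ _
      rw [hd]
      exact Nat.le_mul_of_pos_right _ hpos

/-- Scalar case: the centraliser of a small class modulo the kernel reduces the character. -/
theorem exists_splitter (D : Subgroup G) (μ : IrrCharacter G) (hm : 2 ≤ charDegree (μ : G → ℂ))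
    (hsc : ∀ d ∈ D, ‖(μ : G → ℂ) d‖ = ((μ : G → ℂ) 1).re) (S : ℕ)
    (hS : ∀ (K : Subgroup G) [K.Normal], (∀ g, g ∈ K ↔ (μ : G → ℂ) g = (μ : G → ℂ) 1) →
      Subgroup.center (G ⧸ K) ≠ ⊤ →
      ∃ q : G ⧸ K, q ∉ Subgroup.center (G ⧸ K) ∧
        2 * (Subgroup.centralizer ({q} : Set (G ⧸ K))).index ≤ S) :
    ∃ (V : Subgroup G), D ≤ V ∧ 2 * V.index ≤ S ∧ ∀ [Fintype V] (ψ : IrrCharacter V),
      classInner (fun v : V => (μ : G → ℂ) v) (ψ : V → ℂ) ≠ 0 →
      charDegree (ψ : V → ℂ) < charDegree (μ : G → ℂ) := by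
  classical
  haveI := Fintype.ofFinite G
  obtain ⟨K, hKn, hK, -⟩ := exists_kernel (IsIrrCharacter.isCharacter μ.2)
  haveI := hKn
  have hcen : ∀ g : G, (g : G ⧸ K) ∈ Subgroup.center (G ⧸ K) ↔
      ‖(μ : G → ℂ) g‖ = ((μ : G → ℂ) 1).re := by
    intro g
    rw [norm_eq_iff_commutator, Subgroup.mem_center_iff]
    constructor
    · intro h x
      rw [← hK, ← QuotientGroup.eq_one_iff, commutatorElement_def]
      simp only [QuotientGroup.mk_mul, QuotientGroup.mk_inv]
      rw [← h x]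
      group
    · intro h r
      obtain ⟨x, rfl⟩ := QuotientGroup.mk_surjective r
      have e := (QuotientGroup.eq_one_iff _).2 ((hK _).2 (h x))
      simp only [commutatorElement_def, QuotientGroup.mk_mul, QuotientGroup.mk_inv] at e
      rw [mul_inv_eq_one, mul_inv_eq_iff_eq_mul] at e
      exact e.symm
  have hne : Subgroup.center (G ⧸ K) ≠ ⊤ := by
    intro e
    have h1 : ∀ g : G, ‖(μ : G → ℂ) g‖ = ((μ : G → ℂ) 1).re := fun g =>
      (hcen g).1 (e ▸ Subgroup.mem_top _)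
    obtain ⟨d, hd, hdvd⟩ := exists_degree_dvd_index_of_norm μ.2 ⊤ fun a _ => h1 a
    rw [Subgroup.index_top, Nat.dvd_one] at hdvd
    rw [charDegree_one, hdvd] at hd
    have : charDegree (μ : G → ℂ) = 1 := by exact_mod_cast hd
    omega
  obtain ⟨q, hq, hidx⟩ := hS K hK hne
  obtain ⟨y, rfl⟩ := QuotientGroup.mk_surjective q
  refine ⟨(Subgroup.centralizer ({(y : G ⧸ K)} : Set (G ⧸ K))).comap (QuotientGroup.mk' K), ?_, ?_, ?_⟩
  · intro d hd
    refine Subgroup.mem_comap.2 (Subgroup.mem_centralizer_iff.2 fun z hz => ?_)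
    rw [Set.mem_singleton_iff.1 hz]
    exact Subgroup.mem_center_iff.1 ((hcen d).2 (hsc d hd)) _
  · rw [Subgroup.index_comap_of_surjective _ (QuotientGroup.mk'_surjective K)]
    exact hidx
  intro inst ψ hψ
  let V := (Subgroup.centralizer ({(y : G ⧸ K)} : Set (G ⧸ K))).comap (QuotientGroup.mk' K)
  by_contra hlt
  push Not at hlt
  have hres := res_eq_of_degree_le V ψ μ hψ hlt
  have hy : y ∈ V := Subgroup.mem_comap.2 (Subgroup.mem_centralizer_iff.2 fun z hz => by
    rw [Set.mem_singleton_iff.1 hz]; rfl)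
  have h2 : ∀ v : V, (ψ : V → ℂ) ⁅(⟨y, hy⟩ : V), v⁆ = (ψ : V → ℂ) 1 := by
    intro v
    rw [← hres, ← hres]
    show (μ : G → ℂ) ⁅y, (v : G)⁆ = (μ : G → ℂ) 1
    rw [← hK, ← QuotientGroup.eq_one_iff, commutatorElement_def]
    simp only [QuotientGroup.mk_mul, QuotientGroup.mk_inv]
    have h3 : (y : G ⧸ K) * ((v : G) : G ⧸ K) = ((v : G) : G ⧸ K) * (y : G ⧸ K) :=
      Subgroup.mem_centralizer_iff.1 (Subgroup.mem_comap.1 v.2) _ (Set.mem_singleton _)
    rw [h3]
    group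
  have h4 := (norm_eq_iff_commutator ψ ⟨y, hy⟩).2 h2
  rw [← hres, ← hres] at h4
  exact hq ((hcen y).2 h4)

/-- One step down. -/
theorem exists_step (hb : Bd b G) (D : Subgroup G) [D.Normal]
    (hab : ∀ a ∈ D, ∀ c ∈ D, a * c = c * a) (μ : IrrCharacter G) (hμ : NT D (μ : G → ℂ))
    (hm : 2 ≤ charDegree (μ : G → ℂ)) :
    ∃ (V : Subgroup G) (ψ : IrrCharacter V), D ≤ V ∧ NT (D.subgroupOf V) (ψ : V → ℂ) ∧
      2 * charDegree (ψ : V → ℂ) ≤ charDegree (μ : G → ℂ) ∧ V.index ≤ 2 * b ^ 2 := by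
  classical
  rcases scalar_or_orbit D hab μ hμ with hsc | ⟨V, ψ, h1, h2, h3, h4⟩
  · obtain ⟨V, hDV, hidx, hlt⟩ := exists_splitter D μ hm hsc (3 * b ^ 2)
      (fun K _ _ hne => exists_small_class (hb.quotient K) hne)
    haveI := Fintype.ofFinite V
    obtain ⟨ψ, hψ, hψd⟩ := exists_half V μ fun ψ h => hlt ψ h
    exact ⟨V, ψ, hDV, nt_of_constituent hDV μ ψ hψ hμ, hψd, by omega⟩
  · refine ⟨V, ψ, h1, h2, h3, h4.trans ((hb μ).trans ?_)⟩
    have := Nat.le_self_pow (show (2 : ℕ) ≠ 0 by omega) b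
    omega

/-- A linear character, nontrivial on `D`, of a subgroup of bounded index. -/
theorem exists_linear (m : ℕ) (hb : Bd b G) (D : Subgroup G) [D.Normal]
    (hab : ∀ a ∈ D, ∀ c ∈ D, a * c = c * a) (μ : IrrCharacter G) (hμ : NT D (μ : G → ℂ))
    (hm : charDegree (μ : G → ℂ) ≤ m) :
    ∃ (V : Subgroup G) (μ' : IrrCharacter V), D ≤ V ∧ NT (D.subgroupOf V) (μ' : V → ℂ) ∧
      charDegree (μ' : V → ℂ) = 1 ∧ V.index ≤ (2 * b ^ 2) ^ Nat.log 2 m := by
  induction m using Nat.strong_induction_on generalizing G with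
  | _ m ih =>
    classical
    have hpos := natDegree_pos μ
    have hb1 : 1 ≤ 2 * b ^ 2 := by
      have := hb μ
      have := Nat.le_self_pow (show (2 : ℕ) ≠ 0 by omega) b
      omega
    by_cases h1 : charDegree (μ : G → ℂ) = 1
    · haveI := Fintype.ofFinite (⊤ : Subgroup G)
      haveI := Fintype.ofFinite G
      obtain ⟨ψ, hψ⟩ := CfsgLib.CharTheory.exists_constituent (⊤ : Subgroup G)
        (IsIrrCharacter.isCharacter μ.2) (apply_one_ne_zero_of_isIrr μ.2)
      refine ⟨⊤, ψ, le_top, nt_of_constituent le_top μ ψ hψ hμ, ?_, ?_⟩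
      · exact le_antisymm (h1 ▸ degree_le_of_constituent ⊤ ψ μ hψ) (natDegree_pos ψ)
      · rw [Subgroup.index_top]
        exact Nat.one_le_pow _ _ hb1
    have h2 : 2 ≤ charDegree (μ : G → ℂ) := by omega
    obtain ⟨V, ψ, hDV, hψ, hψd, hidx⟩ := exists_step hb D hab μ hμ h2
    haveI : (D.subgroupOf V).Normal := inferInstance
    obtain ⟨W, μ', hDW, hμ', hd', hW⟩ := ih (m / 2) (by omega) (hb.subgroup V) (D.subgroupOf V)
      (fun a ha c hc => Subtype.ext (hab a ha c hc)) ψ hψ (by omega)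
    let e : W ≃* W.map V.subtype := W.equivMapOfInjective V.subtype V.subtype_injective
    refine ⟨W.map V.subtype,
      ⟨_, isIrrCharacter_comp_mulEquiv μ'.2 e.symm⟩, fun d hd => ?_, ?_, ?_, ?_⟩
    · exact ⟨⟨d, hDV hd⟩, hDW (Subgroup.mem_subgroupOf.2 hd), rfl⟩
    · obtain ⟨w, hw, hne⟩ := hμ'
      refine ⟨e w, Subgroup.mem_subgroupOf.2 (Subgroup.mem_subgroupOf.1 (Subgroup.mem_subgroupOf.1 hw)), ?_⟩
      show (μ' : W → ℂ) (e.symm (e w)) ≠ (μ' : W → ℂ) (e.symm 1)
      rwa [e.symm_apply_apply, map_one]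
    · rw [← hd', charDegree, charDegree]
      show ⌊((μ' : W → ℂ) (e.symm 1)).re⌋₊ = _
      rw [map_one]
    · calc (W.map V.subtype).index = W.index * V.index := Subgroup.index_map_subtype W
        _ ≤ (2 * b ^ 2) ^ Nat.log 2 (m / 2) * (2 * b ^ 2) := Nat.mul_le_mul hW hidx
        _ = _ := by
          rw [← pow_succ, Nat.log_of_one_lt_of_le (b := 2) (n := m) one_lt_two (by omega)]

/-- Twisting by a linear character nontrivial on `D` bounds all degrees. -/
theorem bd_of_twist {V : Subgroup G} {D : Subgroup G} [Fintype V] (μ : IrrCharacter V)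
    (hμ1 : charDegree (μ : V → ℂ) = 1) (hμ : NT (D.subgroupOf V) (μ : V → ℂ)) {β : ℕ}
    (hβ : BdOn β D) (φ : IrrCharacter V) :
    ∃ η : IrrCharacter V, charDegree (η : V → ℂ) = charDegree (φ : V → ℂ) ∧
      NT (D.subgroupOf V) (η : V → ℂ) ∧ charDegree (φ : V → ℂ) ≤ β := by
  classical
  suffices h : ∃ η : IrrCharacter V, charDegree (η : V → ℂ) = charDegree (φ : V → ℂ) ∧
      NT (D.subgroupOf V) (η : V → ℂ) by
    obtain ⟨η, h1, h2⟩ := h
    refine ⟨η, h1, h2, h1 ▸ ?_⟩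
    obtain ⟨χ, hχ⟩ := exists_over V η
    exact (degree_le_of_constituent V η χ hχ).trans (hβ χ (nt_of_res χ η hχ h2))
  by_cases hφ : NT (D.subgroupOf V) (φ : V → ℂ)
  · exact ⟨φ, rfl, hφ⟩
  simp only [NT] at hφ
  push Not at hφ
  have h1 : (μ : V → ℂ) 1 = 1 := by rw [charDegree_one, hμ1, Nat.cast_one]
  obtain ⟨l, hl⟩ := exists_hom_of_degree_one μ.2 h1
  refine ⟨⟨_, isIrrCharacter_mul_of_norm φ.2 (IsIrrCharacter.isCharacter μ.2) fun g => by
    rw [hl]; exact norm_hom_apply l g⟩, ?_, ?_⟩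
  · rw [charDegree, charDegree]
    show ⌊((μ : V → ℂ) 1 * (φ : V → ℂ) 1).re⌋₊ = _
    rw [h1, one_mul]
  · obtain ⟨d, hd, hne⟩ := hμ
    refine ⟨d, hd, fun e => hne ?_⟩
    have e' : (μ : V → ℂ) d * (φ : V → ℂ) d = (μ : V → ℂ) 1 * (φ : V → ℂ) 1 := e
    rw [hφ d hd] at e'
    exact mul_right_cancel₀ (apply_one_ne_zero_of_isIrr φ.2) e'

end CfsgLib.CharDegreesTheory.DegreeBound
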