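import Cfsg.Agent.Lib.CharDegreesTheory.DegreeBound.Two
import Cfsg.Agent.Lib.CharDegreesTheory.DegreesOneP
import Mathlib.Data.Nat.Factorial.Basic

/-!
# An abelian subgroup of index bounded by the largest degree
-/

set_option autoImplicit false
set_option linter.style.haveILetI false
set_option linter.unusedSectionVars false

namespace CfsgLib.CharDegreesTheory.DegreeBound

open Cfsg CfsgLib.CharTheory CfsgLib.Clifford CfsgLib.CharDegreesTheory.SmallDegrees Finset
open scoped ComplexConjugate commutatorElement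

universe u

variable {G : Type u} [Group G] [Finite G] {b : ℕ}

/-- The commutators of `x`. -/
def commClosure (x : G) : Subgroup G :=
  Subgroup.closure (Set.range fun g : G => g * x * g⁻¹ * x⁻¹)

theorem commClosure_normal (x : G) : (commClosure x).Normal := by
  refine ⟨fun n hn h => ?_⟩
  have hle : (commClosure x).map (MulAut.conj h).toMonoidHom ≤ commClosure x := by
    rw [commClosure, MonoidHom.map_closure, Subgroup.closure_le]
    rintro _ ⟨_, ⟨g, rfl⟩, rfl⟩
    have h1 : h * g * x * (h * g)⁻¹ * x⁻¹ ∈ commClosure x := Subgroup.subset_closure ⟨h * g, rfl⟩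
    have h2 : h * x * h⁻¹ * x⁻¹ ∈ commClosure x := Subgroup.subset_closure ⟨h, rfl⟩
    have h3 := mul_mem h1 (inv_mem h2)
    rw [show h * g * x * (h * g)⁻¹ * x⁻¹ * (h * x * h⁻¹ * x⁻¹)⁻¹
      = (MulAut.conj h) (g * x * g⁻¹ * x⁻¹) by simp [MulAut.conj_apply]; group] at h3
    exact h3
  exact hle ⟨n, hn, rfl⟩

theorem commClosure_le {x : G} (hx : ∀ g : G, g * x * g⁻¹ ∈ Subgroup.centralizer ({x} : Set G)) :
    commClosure x ≤ Subgroup.centralizer ({x} : Set G) ∧
      ∀ a ∈ commClosure x, ∀ c ∈ commClosure x, a * c = c * a := by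
  have hxC : x ∈ Subgroup.centralizer ({x} : Set G) := Subgroup.mem_centralizer_iff.2 fun y hy => by
    rw [Set.mem_singleton_iff.1 hy]
  have h1 : commClosure x ≤ Subgroup.centralizer ({x} : Set G) := by
    rw [commClosure, Subgroup.closure_le]
    rintro _ ⟨g, rfl⟩
    exact mul_mem (hx g) (inv_mem hxC)
  have hconj : ∀ a c : G, Commute (a * x * a⁻¹) (c * x * c⁻¹) := by
    intro a c
    have h := Subgroup.mem_centralizer_iff.1 (hx (a⁻¹ * c)) x (Set.mem_singleton x)
    show a * x * a⁻¹ * (c * x * c⁻¹) = c * x * c⁻¹ * (a * x * a⁻¹)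
    calc a * x * a⁻¹ * (c * x * c⁻¹) = a * (x * (a⁻¹ * c * x * (a⁻¹ * c)⁻¹)) * a⁻¹ := by group
      _ = a * (a⁻¹ * c * x * (a⁻¹ * c)⁻¹ * x) * a⁻¹ := by rw [h]
      _ = _ := by group
  have hcx : ∀ a : G, Commute (a * x * a⁻¹) x⁻¹ := fun a => by
    simpa using (hconj a 1).inv_right
  have hgen : ∀ a c : G, Commute (a * x * a⁻¹ * x⁻¹) (c * x * c⁻¹ * x⁻¹) := fun a c =>
    ((hconj a c).mul_right (hcx a)).mul_left ((hcx c).symm.mul_right (Commute.refl _))
  refine ⟨h1, fun a ha c hc => ?_⟩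
  have h2 : commClosure x ≤
      Subgroup.centralizer (Set.range fun g : G => g * x * g⁻¹ * x⁻¹) := by
    rw [commClosure, Subgroup.closure_le]
    rintro _ ⟨g, rfl⟩
    exact Subgroup.mem_centralizer_iff.2 fun y ⟨k, hk⟩ => hk ▸ (hgen k g)
  have h3 : commClosure x ≤ Subgroup.centralizer {a} := by
    rw [commClosure, Subgroup.closure_le]
    intro y hy
    refine Subgroup.mem_centralizer_iff.2 fun z hz => ?_
    rw [Set.mem_singleton_iff.1 hz]
    exact (Subgroup.mem_centralizer_iff.1 (h2 ha) y hy).symm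
  exact Subgroup.mem_centralizer_iff.1 (h3 hc) a rfl

/-- If the centraliser still has the top degree, the class of `x` lies in it. -/
theorem conj_mem_of_full_degree (hb : Bd b G) (x : G) (C : Subgroup G) [Fintype C]
    (hC : C = Subgroup.centralizer ({x} : Set G)) (θ : IrrCharacter C)
    (hθ : b ≤ charDegree (θ : C → ℂ)) (g : G) : g * x * g⁻¹ ∈ C := by
  classical
  haveI := Fintype.ofFinite G
  haveI := Fintype.ofFinite (IrrCharacter G)
  have hxC : x ∈ C := hC.symm ▸ Subgroup.mem_centralizer_iff.2 fun y hy => by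
    rw [Set.mem_singleton_iff.1 hy]
  have hcx : ∀ c : C, x * (c : G) = (c : G) * x := fun c =>
    Subgroup.mem_centralizer_iff.1 (hC ▸ c.2) x (Set.mem_singleton x)
  have hθx : ‖(θ : C → ℂ) ⟨x, hxC⟩‖ = ((θ : C → ℂ) 1).re := by
    rw [norm_eq_iff_commutator]
    intro c
    rw [show ⁅(⟨x, hxC⟩ : C), c⁆ = 1 from commutatorElement_eq_one_iff_mul_comm.2
      (Subtype.ext (hcx c))]
  obtain ⟨m, hm⟩ := IsCharacter.exists_sum
    (CfsgLib.Frobenius.isCharacter_indFun C _ (IsIrrCharacter.isCharacter θ.2))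
  have hval : ∀ χ : IrrCharacter G, m χ ≠ 0 →
      (χ : G → ℂ) x = (θ : C → ℂ) ⟨x, hxC⟩ ∧ (χ : G → ℂ) 1 = (θ : C → ℂ) 1 := by
    intro χ hχ
    have e : classInner (indFun C (θ : C → ℂ)) (χ : G → ℂ) = (m χ : ℂ) := by
      rw [hm]; exact classInner_sum_irr _ χ
    rw [CfsgLib.Frobenius.classInner_indFun C _ _ (IsIrrCharacter.isClassFunction χ.2)] at e
    have h1 : classInner (fun c : C => (χ : G → ℂ) c) (θ : C → ℂ) ≠ 0 := fun h => by
      rw [classInner_conj_symm, h, map_zero] at e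
      exact hχ (by exact_mod_cast e.symm)
    have h2 := res_eq_of_degree_le C θ χ h1 ((hb χ).trans hθ)
    exact ⟨h2 ⟨x, hxC⟩, h2 1⟩
  have hsum : indFun C (θ : C → ℂ) x * (θ : C → ℂ) 1
      = indFun C (θ : C → ℂ) 1 * (θ : C → ℂ) ⟨x, hxC⟩ := by
    rw [hm]
    simp only [Finset.sum_apply, Pi.smul_apply, smul_eq_mul, Finset.sum_mul]
    refine sum_congr rfl fun χ _ => ?_
    by_cases hχ : m χ = 0
    · simp [hχ]
    · rw [(hval χ hχ).1, (hval χ hχ).2]; ring
  rw [CfsgLib.Frobenius.indFun_one, charDegree_one] at hsum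
  rw [charDegree_one, Complex.natCast_re] at hθx
  have hd : (0 : ℝ) < (charDegree (θ : C → ℂ) : ℝ) := by exact_mod_cast natDegree_pos θ
  by_contra hg
  have hnorm := congrArg (fun z : ℂ => ‖z‖) hsum
  simp only [norm_mul, Complex.norm_natCast, hθx] at hnorm
  have h2 : ‖indFun C (θ : C → ℂ) x‖ = (C.index : ℝ) * (charDegree (θ : C → ℂ) : ℝ) :=
    mul_right_cancel₀ hd.ne' hnorm
  have hlt : ‖∑ y : G, extendByZero C (θ : C → ℂ) (y⁻¹ * x * y)‖
      < (Nat.card G : ℝ) * (charDegree (θ : C → ℂ) : ℝ) := by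
    refine lt_of_le_of_lt (norm_sum_le _ _) ?_
    rw [Nat.card_eq_fintype_card, ← card_univ, ← nsmul_eq_mul, ← sum_const]
    refine sum_lt_sum (fun y _ => ?_) ⟨g⁻¹, mem_univ _, ?_⟩
    · by_cases hy : y⁻¹ * x * y ∈ C
      · rw [CfsgLib.Frobenius.extendByZero_of_mem C _ hy]
        have := IsCharacter.norm_le (IsIrrCharacter.isCharacter θ.2) ⟨_, hy⟩
        rwa [charDegree_one, Complex.natCast_re] at this
      · rw [CfsgLib.Frobenius.extendByZero_of_not_mem C _ hy, norm_zero]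
        exact hd.le
    · rw [CfsgLib.Frobenius.extendByZero_of_not_mem C _ (by rwa [inv_inv]), norm_zero]
      exact hd
  rw [indFun, norm_mul, norm_inv, Complex.norm_natCast] at h2
  rw [inv_mul_eq_iff_eq_mul₀ (Nat.cast_ne_zero.2 Nat.card_pos.ne'), ← mul_assoc, ← Nat.cast_mul,
    C.card_mul_index] at h2
  exact hlt.ne h2

/-- A character of the centraliser that extends kills the commutators of `x`. -/
theorem not_nt_of_res_irr (x : G) (C : Subgroup G) [Fintype C]
    (hC : C = Subgroup.centralizer ({x} : Set G)) (χ : IrrCharacter G) (φ : IrrCharacter C)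
    (h : classInner (fun c : C => (χ : G → ℂ) c) (φ : C → ℂ) ≠ 0)
    (hd : charDegree (χ : G → ℂ) ≤ charDegree (φ : C → ℂ)) :
    ¬ NT (commClosure x) (χ : G → ℂ) := by
  have hxC : x ∈ C := hC.symm ▸ Subgroup.mem_centralizer_iff.2 fun y hy => by
    rw [Set.mem_singleton_iff.1 hy]
  have hcx : ∀ c : C, x * (c : G) = (c : G) * x := fun c =>
    Subgroup.mem_centralizer_iff.1 (hC ▸ c.2) x (Set.mem_singleton x)
  have hres := res_eq_of_degree_le C φ χ h hd
  have h1 : ‖(φ : C → ℂ) ⟨x, hxC⟩‖ = ((φ : C → ℂ) 1).re := by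
    rw [norm_eq_iff_commutator]
    intro c
    rw [show ⁅(⟨x, hxC⟩ : C), c⁆ = 1 from commutatorElement_eq_one_iff_mul_comm.2
      (Subtype.ext (hcx c))]
  rw [← hres, ← hres, OneMemClass.coe_one] at h1
  have h2 := (norm_eq_iff_commutator χ x).1 h1
  obtain ⟨K, -, hK, -⟩ := exists_kernel (IsIrrCharacter.isCharacter χ.2)
  have hle : commClosure x ≤ K := by
    rw [commClosure, Subgroup.closure_le]
    rintro _ ⟨g, rfl⟩
    have h3 := inv_mem ((hK _).2 (h2 g))
    rw [commutatorElement_inv, commutatorElement_def] at h3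
    exact h3
  rintro ⟨d, hd', hne⟩
  exact hne ((hK d).1 (hle hd'))

/-! ### Arithmetic -/

theorem descFactorial_mono {n i j : ℕ} (hij : i ≤ j) (hjn : j ≤ n) :
    n.descFactorial i ≤ n.descFactorial j := by
  induction j, hij using Nat.le_induction with
  | base => exact le_rfl
  | succ j _ ih =>
    rw [Nat.descFactorial_succ]
    exact (ih (by omega)).trans (Nat.le_mul_of_pos_left _ (by omega))

theorem pow_le_descFactorial {t : ℕ} (ht : 2 ≤ t) (hb : 2 ^ (t + 1) ≤ b) :
    (2 * b ^ 2) ^ t ≤ ((b - 1).descFactorial (2 ^ t - 1)) ^ 2 := by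
  induction t, ht using Nat.le_induction with
  | base =>
    obtain ⟨c, rfl⟩ : ∃ c, b = c + 8 := ⟨b - 8, by norm_num at hb; omega⟩
    have e : (c + 8 - 1).descFactorial (2 ^ 2 - 1) = (c + 7) * (c + 6) * (c + 5) := by
      rw [show c + 8 - 1 = c + 7 by omega, show 2 ^ 2 - 1 = 3 by norm_num]
      simp only [Nat.descFactorial_succ, Nat.descFactorial_zero, mul_one, Nat.sub_zero,
        show c + 7 - 1 = c + 6 by omega, show c + 7 - 2 = c + 5 by omega]
      ring
    rw [e]
    exact Nat.pow_le_pow_left (by nlinarith : 2 * (c + 8) ^ 2 ≤ (c + 7) * (c + 6) * (c + 5)) 2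
  | succ t ht ih =>
    have e : 2 ^ (t + 1 + 1) = 2 * 2 ^ (t + 1) := by ring
    have e2 : 2 ^ (t + 1) = 2 * 2 ^ t := by ring
    have hT : 4 ≤ 2 ^ t := by
      calc 4 = 2 ^ 2 := by norm_num
        _ ≤ 2 ^ t := Nat.pow_le_pow_right (by norm_num) ht
    have ih' := ih (by omega)
    set T := 2 ^ t
    have hmono : (b - 1).descFactorial (T + 1) ≤ (b - 1).descFactorial (2 ^ (t + 1) - 1) :=
      descFactorial_mono (by omega) (by omega)
    obtain ⟨s, hs⟩ : ∃ s, T = s + 1 := ⟨T - 1, by omega⟩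
    have hexp : (b - 1).descFactorial (T + 1)
        = (b - 1 - (s + 1)) * ((b - 1 - s) * (b - 1).descFactorial (T - 1)) := by
      rw [hs, Nat.descFactorial_succ, Nat.descFactorial_succ, show s + 1 - 1 = s by omega]
    have h1 : b ≤ 2 * (b - 1 - (s + 1)) := by omega
    have h2 : b ≤ 2 * (b - 1 - s) := by omega
    have h16 : 16 ≤ b := by omega
    have h3 : 2 * b ^ 2 ≤ ((b - 1 - (s + 1)) * (b - 1 - s)) ^ 2 := by
      have h4 : b ^ 2 ≤ 4 * ((b - 1 - (s + 1)) * (b - 1 - s)) := by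
        calc b ^ 2 = b * b := by ring
          _ ≤ (2 * (b - 1 - (s + 1))) * (2 * (b - 1 - s)) := Nat.mul_le_mul h1 h2
          _ = _ := by ring
      have h5 := Nat.pow_le_pow_left h4 2
      have h6 : 32 * b ^ 2 ≤ (b ^ 2) ^ 2 := by
        have : 32 ≤ b ^ 2 := by nlinarith
        calc 32 * b ^ 2 ≤ b ^ 2 * b ^ 2 := Nat.mul_le_mul_right _ this
          _ = _ := by ring
      nlinarith
    calc (2 * b ^ 2) ^ (t + 1) = (2 * b ^ 2) ^ t * (2 * b ^ 2) := pow_succ _ _
      _ ≤ ((b - 1).descFactorial (T - 1)) ^ 2 * ((b - 1 - (s + 1)) * (b - 1 - s)) ^ 2 :=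
          Nat.mul_le_mul ih' h3
      _ = ((b - 1).descFactorial (T + 1)) ^ 2 := by rw [hexp]; ring
      _ ≤ _ := Nat.pow_le_pow_left hmono 2

theorem descent_bound {m β : ℕ} (hm : 2 ≤ m) (hmβ : m ≤ β) (hmb : m + β ≤ b) (hδ : β + 3 ≤ b) :
    (2 * b ^ 2) ^ Nat.log 2 m ≤ ((b - 1).descFactorial (b - β - 1)) ^ 2 := by
  by_cases hm4 : m ≤ 3
  · have hlog : Nat.log 2 m = 1 := Nat.log_eq_of_pow_le_of_lt_pow (by omega) (by omega)
    rw [hlog, pow_one]
    refine le_trans ?_ (Nat.pow_le_pow_left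
      (descFactorial_mono (i := 2) (by omega) (by omega)) 2)
    obtain ⟨c, rfl⟩ : ∃ c, b = c + 5 := ⟨b - 5, by omega⟩
    norm_num [Nat.descFactorial_succ]
    have h : 2 * (c + 5) ≤ (c + 4) * (c + 3) := by nlinarith
    nlinarith [Nat.pow_le_pow_left h 2]
  · have hpow : 2 ^ Nat.log 2 m ≤ m := Nat.pow_log_le_self 2 (by omega)
    have ht : 2 ≤ Nat.log 2 m := Nat.le_log_of_pow_le one_lt_two (by omega)
    refine le_trans (pow_le_descFactorial ht (by rw [pow_succ]; omega)) ?_
    exact Nat.pow_le_pow_left (descFactorial_mono (by omega) (by omega)) 2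

theorem factorial_split {β : ℕ} (hβ : β + 1 ≤ b) :
    b.factorial = b * (b - 1).descFactorial (b - β - 1) * β.factorial := by
  rw [show b.factorial = b * (b - 1).factorial from
    (Nat.mul_factorial_pred (by omega)).symm, mul_assoc]
  congr 1
  rw [← Nat.factorial_mul_descFactorial (n := b - 1) (k := b - β - 1) (by omega),
    show b - 1 - (b - β - 1) = β by omega, mul_comm]

theorem combine {R I A L β : ℕ} (hR : R ≤ b ^ 2) (hI : I ≤ L) (hA : A ≤ β.factorial ^ 2) {F : ℕ}
    (hL : L ≤ F ^ 2) (hf : b * F * β.factorial ≤ b.factorial) : A * I * R ≤ b.factorial ^ 2 := by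
  calc A * I * R ≤ β.factorial ^ 2 * F ^ 2 * b ^ 2 :=
        Nat.mul_le_mul (Nat.mul_le_mul hA (hI.trans hL)) hR
    _ = (b * F * β.factorial) ^ 2 := by ring
    _ ≤ _ := Nat.pow_le_pow_left hf 2

/-! ### The theorem -/

/-- The bound for degrees up to two. -/
theorem exists_abelian_two (hb : Bd 2 G) :
    ∃ A : Subgroup G, (∀ x ∈ A, ∀ y ∈ A, x * y = y * x) ∧ A.index ≤ 4 := by
  classical
  by_cases hG : ∃ a c : G, a * c ≠ c * a
  · have hdeg : ∀ χ : IrrCharacter G, charDegree (χ : G → ℂ) = 1 ∨ charDegree (χ : G → ℂ) = 2 :=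
      fun χ => by
        have := hb χ
        have := natDegree_pos χ
        omega
    have hex : ∃ χ : IrrCharacter G, charDegree (χ : G → ℂ) = 2 := by
      by_contra hc
      push Not at hc
      obtain ⟨a, c, hne⟩ := hG
      exact hne (comm_of_linear (fun χ => by
        rw [charDegree_one, (hdeg χ).resolve_right (hc χ), Nat.cast_one]) a c)
    rcases (DegreesOneP.iff_of_nonabelian hG 2 Nat.prime_two).1 ⟨hdeg, hex⟩ with
      ⟨A, -, hA, hidx⟩ | hidx
    · exact ⟨A, hA, by omega⟩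
    · have hne : Subgroup.center G ≠ ⊤ := fun e => by
        rw [e, Subgroup.index_top] at hidx
        omega
      obtain ⟨x, -, hx⟩ := SetLike.exists_of_lt hne.lt_top
      obtain ⟨A, hA, -, hi⟩ := exists_abelian_of_elem x
      refine ⟨A, hA, ?_⟩
      have h2 : 2 ≤ orderOf (x : G ⧸ Subgroup.center G) := by
        have h1 : orderOf (x : G ⧸ Subgroup.center G) ≠ 1 := fun e =>
          hx ((QuotientGroup.eq_one_iff x).1 (orderOf_eq_one_iff.1 e))
        have h0 := orderOf_pos (x : G ⧸ Subgroup.center G)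
        omega
      rw [hidx] at hi
      nlinarith
  · push Not at hG
    exact ⟨⊤, fun x _ y _ => hG x y, by rw [Subgroup.index_top]; omega⟩

/-- The bound when the centre has small index. -/
theorem exists_abelian_small (b : ℕ) (h3 : 3 ≤ b)
    (hN : (Subgroup.center G).index ≤ b.factorial ^ 2 ∨
      (b = 3 ∧ (Subgroup.center G).index ≤ 81)) :
    ∃ A : Subgroup G, (∀ x ∈ A, ∀ y ∈ A, x * y = y * x) ∧ A.index ≤ b.factorial ^ 2 := by
  by_cases hN' : (Subgroup.center G).index ≤ b.factorial ^ 2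
  · exact ⟨Subgroup.center G, fun x _ y hy => Subgroup.mem_center_iff.1 hy x, hN'⟩
  obtain ⟨rfl, h81⟩ := hN.resolve_left hN'
  norm_num [Nat.factorial] at hN' ⊢
  by_cases hq : ∃ q : G ⧸ Subgroup.center G, 3 ≤ orderOf q
  · obtain ⟨q, hq⟩ := hq
    obtain ⟨x, rfl⟩ := QuotientGroup.mk_surjective q
    obtain ⟨A, hA, -, hi⟩ := exists_abelian_of_elem x
    exact ⟨A, hA, by nlinarith⟩
  push Not at hq
  haveI := Fact.mk Nat.prime_two
  obtain ⟨k, hk⟩ := IsPGroup.iff_card.1 (fun q : G ⧸ Subgroup.center G => (⟨1, by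
    have h1 := hq q
    have h0 := orderOf_pos q
    rw [pow_one, ← orderOf_dvd_iff_pow_eq_one]
    interval_cases h : orderOf q <;> norm_num⟩ : ∃ k : ℕ, q ^ 2 ^ k = 1))
  have hk' : (Subgroup.center G).index = 2 ^ k := hk
  have hk6 : k ≤ 6 := by
    by_contra hc
    have := Nat.pow_le_pow_right (show 1 ≤ 2 by omega) (show 7 ≤ k by omega)
    omega
  have h64 := Nat.pow_le_pow_right (show 1 ≤ 2 by omega) hk6
  have hne : Subgroup.center G ≠ ⊤ := fun e => by
    rw [e, Subgroup.index_top] at hN'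
    omega
  obtain ⟨x, -, hx⟩ := SetLike.exists_of_lt hne.lt_top
  obtain ⟨A, hA, -, hi⟩ := exists_abelian_of_elem x
  refine ⟨A, hA, ?_⟩
  have h2 : 2 ≤ orderOf (x : G ⧸ Subgroup.center G) := by
    have h1 : orderOf (x : G ⧸ Subgroup.center G) ≠ 1 := fun e =>
      hx ((QuotientGroup.eq_one_iff x).1 (orderOf_eq_one_iff.1 e))
    have h0 := orderOf_pos (x : G ⧸ Subgroup.center G)
    omega
  nlinarith

/-- Isaacs–Passman: an abelian subgroup of index at most `(b!)²`. -/
theorem exists_abelian : ∀ (b : ℕ) (G : Type u) [Group G] [Finite G], Bd b G →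
    ∃ A : Subgroup G, (∀ x ∈ A, ∀ y ∈ A, x * y = y * x) ∧ A.index ≤ b.factorial ^ 2 := by
  intro b
  induction b using Nat.strong_induction_on with
  | _ b ih =>
    intro G _ _ hb
    classical
    by_cases hb1 : b ≤ 1
    · refine ⟨⊤, fun x _ y _ => comm_of_linear (fun χ => ?_) x y, ?_⟩
      · have := hb χ
        have := natDegree_pos χ
        rw [charDegree_one, show charDegree (χ : G → ℂ) = 1 by omega, Nat.cast_one]
      · rw [Subgroup.index_top]
        exact Nat.one_le_pow _ _ (Nat.factorial_pos _)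
    by_cases hb2 : b = 2
    · subst hb2
      exact exists_abelian_two hb
    have hb3 : 3 ≤ b := by omega
    by_cases hsmall : (Subgroup.center G).index ≤ b.factorial ^ 2 ∨
        (b = 3 ∧ (Subgroup.center G).index ≤ 81)
    · exact exists_abelian_small b hb3 hsmall
    push Not at hsmall
    have hbig : b ^ 4 < (Subgroup.center G).index := by
      by_cases h3 : b = 3
      · have := hsmall.2 h3
        subst h3
        omega
      · refine lt_of_le_of_lt ?_ hsmall.1
        obtain ⟨c, rfl⟩ : ∃ c, b = c + 4 := ⟨b - 4, by omega⟩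
        have h : (c + 4) ^ 2 ≤ (c + 4).factorial := by
          rw [Nat.factorial_succ, Nat.factorial_succ]
          have h' := Nat.self_le_factorial (c + 2)
          have h'' : c + 4 ≤ (c + 2 + 1) * (c + 2).factorial := by nlinarith
          rw [sq]
          exact Nat.mul_le_mul_left _ h''
        calc (c + 4) ^ 4 = ((c + 4) ^ 2) ^ 2 := by ring
          _ ≤ _ := Nat.pow_le_pow_left h 2
    obtain ⟨x, hxZ, hxR⟩ := exists_class_le_sq hb hbig
    set C := Subgroup.centralizer ({x} : Set G) with hC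
    haveI := Fintype.ofFinite C
    -- abelian subgroups of subgroups of `C`
    have push_up : ∀ (V : Subgroup C) (β : ℕ) (L F : ℕ), Bd β V → β < b → V.index ≤ L →
        L ≤ F ^ 2 → b * F * β.factorial ≤ b.factorial →
        ∃ A : Subgroup G, (∀ x ∈ A, ∀ y ∈ A, x * y = y * x) ∧ A.index ≤ b.factorial ^ 2 := by
      intro V β L F hV hβ hVL hL hF
      obtain ⟨A, hA, hAi⟩ := ih β hβ V hV
      refine ⟨(A.map V.subtype).map C.subtype, ?_, ?_⟩
      · rintro _ ⟨_, ⟨a, ha, rfl⟩, rfl⟩ _ ⟨_, ⟨c, hc, rfl⟩, rfl⟩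
        simpa using congrArg (fun v : V => ((v : C) : G)) (hA a ha c hc)
      · rw [Subgroup.index_map_subtype, Subgroup.index_map_subtype]
        exact combine hxR hVL hAi hL hF
    by_cases hgood : ∀ φ : IrrCharacter C, charDegree (φ : C → ℂ) < b
    · obtain ⟨A, hA, hAi⟩ := ih (b - 1) (by omega) C (fun φ => by have := hgood φ; omega)
      refine ⟨A.map C.subtype, ?_, ?_⟩
      · rintro _ ⟨a, ha, rfl⟩ _ ⟨c, hc, rfl⟩
        simpa using congrArg (fun v : C => (v : G)) (hA a ha c hc)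
      · rw [Subgroup.index_map_subtype]
        calc A.index * C.index ≤ (b - 1).factorial ^ 2 * b ^ 2 := Nat.mul_le_mul hAi hxR
          _ = (b * (b - 1).factorial) ^ 2 := by ring
          _ = _ := by rw [Nat.mul_factorial_pred (by omega)]
    push Not at hgood
    obtain ⟨θ, hθ⟩ := hgood
    have hconj : ∀ g, g * x * g⁻¹ ∈ C := conj_mem_of_full_degree hb x C hC θ hθ
    obtain ⟨hDC, hDab⟩ := commClosure_le hconj
    haveI hDn := commClosure_normal x
    set D := (commClosure x).subgroupOf C with hD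
    haveI : D.Normal := inferInstance
    have hDab' : ∀ a ∈ D, ∀ c ∈ D, a * c = c * a := fun a ha c hc => Subtype.ext (hDab a ha c hc)
    have hCb : Bd b C := hb.subgroup C
    have hDne : ∃ φ : IrrCharacter C, NT D (φ : C → ℂ) := by
      obtain ⟨g, hg⟩ : ∃ g : G, g * x ≠ x * g := by
        by_contra hc
        push Not at hc
        exact hxZ (Subgroup.mem_center_iff.2 hc)
      have hmem : g * x * g⁻¹ * x⁻¹ ∈ commClosure x := Subgroup.subset_closure ⟨g, rfl⟩
      obtain ⟨φ, hφ⟩ := exists_irr_apply_ne (g := (⟨_, hDC hmem⟩ : C)) fun e => hg (by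
        have e' : g * x * g⁻¹ * x⁻¹ = 1 := congrArg Subtype.val e
        rwa [mul_inv_eq_one, mul_inv_eq_iff_eq_mul] at e')
      exact ⟨φ, _, Subgroup.mem_subgroupOf.2 hmem, hφ⟩
    haveI := Fintype.ofFinite (IrrCharacter C)
    obtain ⟨φ₀, hφ₀, hmax⟩ := exists_max_image
      ((univ : Finset (IrrCharacter C)).filter fun φ : IrrCharacter C => NT D (φ : C → ℂ))
      (fun φ : IrrCharacter C => charDegree (φ : C → ℂ))
      (by obtain ⟨φ, hφ⟩ := hDne; exact ⟨φ, mem_filter.2 ⟨mem_univ _, hφ⟩⟩)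
    replace hφ₀ := (mem_filter.1 hφ₀).2
    set β := charDegree (φ₀ : C → ℂ) with hβdef
    have hβ : BdOn β D := fun φ hφ => hmax φ (mem_filter.2 ⟨mem_univ _, hφ⟩)
    obtain ⟨χ, hχ⟩ := exists_over C φ₀
    have hχNT := nt_of_res χ φ₀ hχ hφ₀
    have hχb := hb χ
    have hred : β < charDegree (χ : G → ℂ) := by
      by_contra hle
      push Not at hle
      exact not_nt_of_res_irr x C hC χ φ₀ hχ hle hχNT
    -- the second constituent
    obtain ⟨μ, hμ, hμd⟩ : ∃ μ : IrrCharacter C,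
        classInner (fun c : C => (χ : G → ℂ) c) (μ : C → ℂ) ≠ 0 ∧
        charDegree (μ : C → ℂ) + β ≤ charDegree (χ : G → ℂ) := by
      obtain ⟨m, -, hin, hdeg⟩ := exists_mult C χ
      have hm0 : m φ₀ ≠ 0 := fun e => hχ (by rw [hin, e, Nat.cast_zero])
      rw [← add_sum_erase _ _ (mem_univ φ₀), ← hβdef] at hdeg
      by_cases h2 : 2 ≤ m φ₀
      · exact ⟨φ₀, hχ, by have := Nat.mul_le_mul_right β h2; omega⟩
      have h1 : m φ₀ = 1 := by omega
      rw [h1, one_mul] at hdeg
      obtain ⟨ψ, hψ, hne⟩ := exists_ne_zero_of_sum_ne_zero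
        (show ∑ φ ∈ univ.erase φ₀, m φ * charDegree (φ : C → ℂ) ≠ 0 by omega)
      have hmψ : m ψ ≠ 0 := fun e => hne (by rw [e, zero_mul])
      refine ⟨ψ, by rw [hin]; exact_mod_cast hmψ, ?_⟩
      have h3 : charDegree (ψ : C → ℂ) ≤ ∑ φ ∈ univ.erase φ₀, m φ * charDegree (φ : C → ℂ) :=
        le_trans (Nat.le_mul_of_pos_left _ (Nat.pos_of_ne_zero hmψ))
          (single_le_sum (f := fun φ : IrrCharacter C => m φ * charDegree (φ : C → ℂ))
            (fun _ _ => Nat.zero_le _) hψ)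
      omega
    have hμNT : NT D (μ : C → ℂ) := nt_of_constituent hDC χ μ hμ hχNT
    have hμβ : charDegree (μ : C → ℂ) ≤ β := hβ μ hμNT
    have hμpos := natDegree_pos μ
    -- finishing from a linear character
    have finish : ∀ (V : Subgroup C) (μ' : IrrCharacter V) (L F : ℕ),
        NT (D.subgroupOf V) (μ' : V → ℂ) → charDegree (μ' : V → ℂ) = 1 → V.index ≤ L → L ≤ F ^ 2 →
        b * F * β.factorial ≤ b.factorial →
        ∃ A : Subgroup G, (∀ x ∈ A, ∀ y ∈ A, x * y = y * x) ∧ A.index ≤ b.factorial ^ 2 := by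
      intro V μ' L F hμ' hd' hVL hL hF
      haveI := Fintype.ofFinite V
      refine push_up V β L F (fun φ => ?_) (by omega) hVL hL hF
      obtain ⟨η, -, -, h⟩ := bd_of_twist μ' hd' hμ' hβ φ
      exact h
    have hfac := factorial_split (b := b) (β := β) (by omega)
    by_cases hm1 : charDegree (μ : C → ℂ) = 1
    · obtain ⟨V, μ', -, hμ', hd', hidx⟩ := exists_linear 1 hCb D hDab' μ hμNT hm1.le
      rw [Nat.log_one_right, pow_zero] at hidx
      refine finish V μ' 1 1 hμ' hd' hidx (by norm_num) ?_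
      rw [mul_one, ← Nat.mul_factorial_pred (show b ≠ 0 by omega)]
      exact Nat.mul_le_mul_left _ (Nat.factorial_le (by omega))
    by_cases hδ : β + 3 ≤ b
    · obtain ⟨V, μ', -, hμ', hd', hidx⟩ := exists_linear _ hCb D hDab' μ hμNT le_rfl
      exact finish V μ' _ _ hμ' hd' hidx (descent_bound (by omega) hμβ (by omega) hδ) hfac.ge
    have hμ2 : charDegree (μ : C → ℂ) = 2 := by omega
    have hβb : b = β + 2 := by omega
    have hF1 : (b - 1).descFactorial (b - β - 1) = b - 1 := by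
      rw [show b - β - 1 = 1 by omega, Nat.descFactorial_one]
    rw [hF1] at hfac
    have h4 : 4 ≤ (b - 1) ^ 2 := by
      have : 2 ≤ b - 1 := by omega
      calc 4 = 2 ^ 2 := by norm_num
        _ ≤ _ := Nat.pow_le_pow_left this 2
    rcases scalar_or_orbit D hDab' μ hμNT with hsc | ⟨V, ψ, -, hψ, hψd, hidx⟩
    swap
    · exact finish V ψ 4 (b - 1) hψ (by have := natDegree_pos ψ; omega) (by omega) h4 hfac.ge
    by_cases hb4 : b = 4
    · obtain ⟨d₀, hd₀, hne⟩ := id hμNT
      obtain ⟨V, hDV, hidx, hlt⟩ := exists_splitter D μ (by omega) hsc 18 (fun K _ hK hne' => by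
        subst hb4
        have hd₁ : ((d₀ : C) : C ⧸ K) ≠ 1 := fun e => hne ((hK d₀).1 ((QuotientGroup.eq_one_iff d₀).1 e))
        refine exists_class_le_nine (hCb.quotient K) hd₁ (fun η hη => ?_) hne'
        refine le_trans (hmax ⟨_, isIrrCharacter_comp η.2 (QuotientGroup.mk'_surjective K)⟩
          (mem_filter.2 ⟨mem_univ _, d₀, hd₀, ?_⟩)) (by omega)
        exact hη)
      haveI := Fintype.ofFinite V
      obtain ⟨ψ, hψ, hψd⟩ := exists_half V μ fun ψ h => hlt ψ h
      exact finish V ψ 9 (b - 1) (nt_of_constituent hDV μ ψ hψ hμNT)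
        (by have := natDegree_pos ψ; omega) (by omega) (by subst hb4; norm_num) hfac.ge
    by_cases hfix : ∃ l : C →* ℂˣ, l ≠ 1 ∧ ∀ g, (μ : C → ℂ) g * (l g : ℂ) = (μ : C → ℂ) g
    · obtain ⟨l, hl, hfix⟩ := hfix
      obtain ⟨V, μ', -, hμ', hd', hidx⟩ := exists_linear_of_fixed D μ hμNT hμ2 hsc l hl hfix
      exact finish V μ' 4 (b - 1) hμ' hd' hidx h4 hfac.ge
    have hprim : ∀ l : C →* ℂˣ, (∀ g, (μ : C → ℂ) g * (l g : ℂ) = (μ : C → ℂ) g) → l = 1 :=
      fun l hl => by
        by_contra hne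
        exact hfix ⟨l, hne, hl⟩
    obtain ⟨V, hDV, hidx, hlt⟩ := exists_splitter D μ (by omega) hsc (3 * b ^ 2)
      (fun K _ _ hne => exists_small_class (hCb.quotient K) hne)
    haveI := Fintype.ofFinite V
    obtain ⟨ψ, hψ, hψd⟩ := exists_half V μ fun ψ h => hlt ψ h
    have hψNT := nt_of_constituent hDV μ ψ hψ hμNT
    have hψ1 : charDegree (ψ : V → ℂ) = 1 := by have := natDegree_pos ψ; omega
    refine push_up V (β - 1) (2 * b ^ 2) ((b - 1) * (b - 2)) (fun φ => ?_) (by omega) (by omega) ?_ ?_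
    · obtain ⟨η, hηd, hηNT, -⟩ := bd_of_twist ψ hψ1 hψNT hβ φ
      have := bd_of_primitive_two hCb (by omega) D hβ μ hμ2 hprim V (fun ψ h => hlt ψ h) η hηNT
      omega
    · obtain ⟨c, rfl⟩ : ∃ c, b = c + 5 := ⟨b - 5, by omega⟩
      rw [show c + 5 - 1 = c + 4 by omega, show c + 5 - 2 = c + 3 by omega]
      have h : 2 * (c + 5) ≤ (c + 4) * (c + 3) := by nlinarith
      nlinarith [Nat.pow_le_pow_left h 2]
    · rw [hfac, show b - 2 = β by omega]
      calc b * ((b - 1) * β) * (β - 1).factorial = b * (b - 1) * (β * (β - 1).factorial) := by ring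
        _ = b * (b - 1) * β.factorial := by rw [Nat.mul_factorial_pred (by omega)]
        _ ≤ _ := le_rfl

end CfsgLib.CharDegreesTheory.DegreeBound
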