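import Cfsg.Agent.Lib.CharDegreesTheory.DegreeBound.Descent

/-!
# Bounded degrees: constituents of degree two
-/

set_option autoImplicit false
set_option linter.style.haveILetI false
set_option linter.unusedSectionVars false

namespace CfsgLib.CharDegreesTheory.DegreeBound

open Cfsg CfsgLib.CharTheory CfsgLib.Clifford CfsgLib.CharDegreesTheory.SmallDegrees Finset
open scoped ComplexConjugate commutatorElement

universe u

variable {G : Type u} [Group G] [Finite G] {b : ℕ}

/-- Degree four with faithful part of degree two: classes of size nine. -/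
theorem exists_class_le_nine (h : Bd 4 G) {d : G} (hd : d ≠ 1)
    (h2 : ∀ χ : IrrCharacter G, (χ : G → ℂ) d ≠ (χ : G → ℂ) 1 → charDegree (χ : G → ℂ) ≤ 2)
    (hne : Subgroup.center G ≠ ⊤) :
    ∃ q : G, q ∉ Subgroup.center G ∧ 2 * (Subgroup.centralizer ({q} : Set G)).index ≤ 18 := by
  classical
  haveI := Fintype.ofFinite G
  haveI := Fintype.ofFinite (IrrCharacter G)
  by_contra hc
  push Not at hc
  have h1 := class_count 9 (fun x hx => by have := hc x hx; omega)
  set F := (univ : Finset (IrrCharacter G)).filter fun χ : IrrCharacter G => (χ : G → ℂ) d = (χ : G → ℂ) 1 with hF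
  set N := (univ : Finset (IrrCharacter G)).filter fun χ : IrrCharacter G => ¬ (χ : G → ℂ) d = (χ : G → ℂ) 1 with hN
  have hsum := sum_degree_mul (G := G) d
  rw [if_neg hd] at hsum
  have hre := congrArg Complex.re hsum
  rw [Complex.re_sum, Complex.zero_re, ← sum_filter_add_sum_filter_not univ
    (fun χ : IrrCharacter G => (χ : G → ℂ) d = (χ : G → ℂ) 1)] at hre
  rw [sum_congr rfl (g := fun χ : IrrCharacter G => (charDegree (χ : G → ℂ) : ℝ) ^ 2) (fun χ hχ => by
    rw [(mem_filter.1 hχ).2, charDegree_one, Complex.mul_re, Complex.natCast_re, Complex.natCast_im]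
    ring)] at hre
  have hle : ∀ χ ∈ N, -((charDegree (χ : G → ℂ) : ℝ) ^ 2)
      ≤ ((χ : G → ℂ) 1 * (χ : G → ℂ) d).re := by
    intro χ _
    have := IsCharacter.norm_le (IsIrrCharacter.isCharacter χ.2) d
    rw [charDegree_one, Complex.natCast_re] at this
    rw [charDegree_one, Complex.mul_re, Complex.natCast_re, Complex.natCast_im, zero_mul, sub_zero,
      sq, ← mul_neg]
    refine mul_le_mul_of_nonneg_left ?_ (Nat.cast_nonneg _)
    have h' := abs_le.1 ((Complex.abs_re_le_norm ((χ : G → ℂ) d)).trans this)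
    linarith [h'.1]
  have hTN : ∑ χ ∈ F, charDegree (χ : G → ℂ) ^ 2 ≤ ∑ χ ∈ N, charDegree (χ : G → ℂ) ^ 2 := by
    have := sum_le_sum hle
    rw [sum_neg_distrib] at this
    have h' : (∑ χ ∈ F, (charDegree (χ : G → ℂ) : ℝ) ^ 2)
        ≤ ∑ χ ∈ N, (charDegree (χ : G → ℂ) : ℝ) ^ 2 := by
      linarith
    exact_mod_cast h'
  have hcard : Nat.card G = ∑ χ ∈ F, charDegree (χ : G → ℂ) ^ 2
      + ∑ χ ∈ N, charDegree (χ : G → ℂ) ^ 2 := by
    rw [card_eq_sum, hF, hN, sum_filter_add_sum_filter_not]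
  have hk : Nat.card (IrrCharacter G) = F.card + N.card := by
    rw [hF, hN, Nat.card_eq_fintype_card, card_filter_add_card_filter_not, card_univ]
  have hF16 : ∑ χ ∈ F, charDegree (χ : G → ℂ) ^ 2 ≤ F.card * 16 :=
    sum_le_card_nsmul F _ 16 fun χ _ => by
      have := Nat.pow_le_pow_left (h χ) 2
      omega
  have hN4 : ∑ χ ∈ N, charDegree (χ : G → ℂ) ^ 2 ≤ N.card * 4 :=
    sum_le_card_nsmul N _ 4 fun χ hχ => by
      have := Nat.pow_le_pow_left (h2 χ (mem_filter.1 hχ).2) 2
      omega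
  obtain ⟨x₀, -, hx₀⟩ := SetLike.exists_of_lt hne.lt_top
  have h3 := two_mul_index_le hx₀
  have h4 := hc x₀ hx₀
  have hZ := (Subgroup.center G).card_mul_index
  have h5 : 5 * Nat.card G ≤ 32 * Nat.card (IrrCharacter G) := by omega
  have hN16 : (Subgroup.center G).index ≤ 16 := by
    refine Nat.le_of_mul_le_mul_left ?_ (Nat.card_pos : 0 < Nat.card (Subgroup.center G))
    omega
  omega

/-- A character fixed by a linear twist is induced from a small normal subgroup. -/
theorem exists_linear_of_fixed (D : Subgroup G) [D.Normal] (μ : IrrCharacter G) (hμ : NT D (μ : G → ℂ))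
    (h2 : charDegree (μ : G → ℂ) = 2) (hsc : ∀ d ∈ D, ‖(μ : G → ℂ) d‖ = ((μ : G → ℂ) 1).re)
    (l : G →* ℂˣ) (hl : l ≠ 1) (hfix : ∀ g, (μ : G → ℂ) g * (l g : ℂ) = (μ : G → ℂ) g) :
    ∃ (V : Subgroup G) (μ' : IrrCharacter V), D ≤ V ∧ NT (D.subgroupOf V) (μ' : V → ℂ) ∧
      charDegree (μ' : V → ℂ) = 1 ∧ V.index ≤ 4 := by
  classical
  haveI := Fintype.ofFinite G
  haveI := Fintype.ofFinite l.ker
  have hμ1 : ((μ : G → ℂ) 1).re = 2 := by rw [charDegree_one, h2, Complex.natCast_re]; norm_num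
  have hvan : ∀ g, g ∉ l.ker → (μ : G → ℂ) g = 0 := fun g hg => by
    by_contra h0
    exact hg (MonoidHom.mem_ker.2 (Units.ext ((mul_eq_left₀ h0).1 (hfix g))))
  have hDL : D ≤ l.ker := fun d hd => by
    by_contra hdl
    have := hsc d hd
    rw [hvan d hdl, hμ1, norm_zero] at this
    norm_num at this
  have hsum : ∑ g : l.ker, (μ : G → ℂ) g * conj ((μ : G → ℂ) g) = Nat.card G := by
    have h1 := classInner_self_of_isIrr μ.2
    rw [classInner, inv_mul_eq_one₀ (Nat.cast_ne_zero.2 Nat.card_pos.ne')] at h1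
    rw [h1, ← sum_subtype (univ.filter fun g => g ∈ l.ker) (fun g => by simp)
      (fun g => (μ : G → ℂ) g * conj ((μ : G → ℂ) g))]
    refine sum_subset (subset_univ _) fun g _ hg => ?_
    rw [hvan g fun e => hg (mem_filter.2 ⟨mem_univ _, e⟩), zero_mul]
  have hidx : l.ker.index ≤ 4 := by
    have hb : (Nat.card G : ℝ) ≤ ∑ _g : l.ker, (4 : ℝ) := by
      have := congrArg Complex.re hsum
      rw [Complex.re_sum, Complex.natCast_re] at this
      rw [← this]
      refine sum_le_sum fun g _ => ?_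
      rw [Complex.mul_conj', ← Complex.ofReal_pow, Complex.ofReal_re]
      have := IsCharacter.norm_le (IsIrrCharacter.isCharacter μ.2) (g : G)
      rw [hμ1] at this
      nlinarith [norm_nonneg ((μ : G → ℂ) g)]
    rw [sum_const, card_univ, nsmul_eq_mul, ← Nat.card_eq_fintype_card] at hb
    have hb' : Nat.card G ≤ Nat.card l.ker * 4 := by exact_mod_cast hb
    rw [← l.ker.card_mul_index] at hb'
    exact Nat.le_of_mul_le_mul_left hb' Nat.card_pos
  obtain ⟨ψ, hψ, hψd⟩ := exists_half l.ker μ fun ψ hψ => by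
    by_contra hlt
    push Not at hlt
    have hres := res_eq_of_degree_le l.ker ψ μ hψ hlt
    have h1 := classInner_self_of_isIrr ψ.2
    rw [classInner, inv_mul_eq_one₀ (Nat.cast_ne_zero.2 Nat.card_pos.ne')] at h1
    simp only [← hres] at h1
    rw [hsum] at h1
    have htop : l.ker = ⊤ := Subgroup.eq_top_of_card_eq _ (by exact_mod_cast h1)
    exact hl (MonoidHom.ext fun g => MonoidHom.mem_ker.1 (htop ▸ Subgroup.mem_top g))
  exact ⟨l.ker, ψ, hDL, nt_of_constituent hDL μ ψ hψ hμ,
    by have := natDegree_pos ψ; omega, hidx⟩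

/-- A primitive constituent of degree two lowers the degrees on the subgroup splitting it. -/
theorem bd_of_primitive_two {β : ℕ} (hb : Bd b G) (hβ2 : b < 2 * β) (D : Subgroup G)
    (hβ : BdOn β D) (μ : IrrCharacter G) (h2 : charDegree (μ : G → ℂ) = 2)
    (hprim : ∀ l : G →* ℂˣ, (∀ g, (μ : G → ℂ) g * (l g : ℂ) = (μ : G → ℂ) g) → l = 1)
    (V : Subgroup G) [Fintype V] (hV : ∀ ψ : IrrCharacter V,
      classInner (fun v : V => (μ : G → ℂ) v) (ψ : V → ℂ) ≠ 0 →
      charDegree (ψ : V → ℂ) < charDegree (μ : G → ℂ))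
    (φ : IrrCharacter V) (hφ : NT (D.subgroupOf V) (φ : V → ℂ)) :
    charDegree (φ : V → ℂ) < β := by
  classical
  haveI := Fintype.ofFinite G
  haveI := Fintype.ofFinite (IrrCharacter G)
  by_contra hlt
  push Not at hlt
  obtain ⟨η, hη⟩ := exists_over V φ
  have hηNT := nt_of_res η φ hη hφ
  have hηd : charDegree (η : G → ℂ) = β :=
    le_antisymm (hβ η hηNT) (hlt.trans (degree_le_of_constituent V φ η hη))
  have hres := res_eq_of_degree_le V φ η hη (by omega)
  let P : G → ℂ := fun g => (η : G → ℂ) g * conj ((η : G → ℂ) g)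
  let Q : G → ℂ := fun g => (μ : G → ℂ) g * conj ((μ : G → ℂ) g)
  have hP : IsCharacter G P :=
    isCharacter_mul (IsIrrCharacter.isCharacter η.2) (isCharacter_conj (IsIrrCharacter.isCharacter η.2))
  have hQ : IsCharacter G Q :=
    isCharacter_mul (IsIrrCharacter.isCharacter μ.2) (isCharacter_conj (IsIrrCharacter.isCharacter μ.2))
  obtain ⟨a, ha⟩ := IsCharacter.exists_sum hP
  obtain ⟨q, hq⟩ := IsCharacter.exists_sum hQ
  have hqin : ∀ χ : IrrCharacter G, classInner Q (χ : G → ℂ) = q χ := fun χ => by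
    rw [hq]; exact classInner_sum_irr _ χ
  have htrivin : ∀ χ : IrrCharacter G,
      classInner (fun g => (χ : G → ℂ) g * conj ((χ : G → ℂ) g)) (trivIrr G : G → ℂ) = 1 := by
    intro χ
    refine Eq.trans ?_ (classInner_self_of_isIrr χ.2)
    simp [classInner, trivIrr_apply]
  have ha0 : a (trivIrr G) = 1 := by
    have : classInner P (trivIrr G : G → ℂ) = (a (trivIrr G) : ℂ) := by
      rw [ha]; exact classInner_sum_irr _ _
    exact_mod_cast this.symm.trans (htrivin η)
  have hq0 : q (trivIrr G) = 1 := by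
    exact_mod_cast (hqin (trivIrr G)).symm.trans (htrivin μ)
  have hdegQ : ∑ χ : IrrCharacter G, q χ * charDegree (χ : G → ℂ) = 4 := by
    have h1 := congrFun hq 1
    simp only [Q, Finset.sum_apply, Pi.smul_apply, smul_eq_mul, charDegree_one, h2,
      Complex.conj_natCast] at h1
    have : ((∑ χ : IrrCharacter G, q χ * charDegree (χ : G → ℂ) : ℕ) : ℂ) = ((2 * 2 : ℕ) : ℂ) := by
      push_cast
      norm_num at h1 ⊢
      exact h1.symm
    exact_mod_cast this
  have hnolin : ∀ χ : IrrCharacter G, χ ≠ trivIrr G → q χ ≠ 0 → 2 ≤ charDegree (χ : G → ℂ) := by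
    intro χ hχ hqχ
    by_contra hd
    have hd1 : (χ : G → ℂ) 1 = 1 := by
      have := natDegree_pos χ
      rw [charDegree_one, show charDegree (χ : G → ℂ) = 1 by omega, Nat.cast_one]
    obtain ⟨l, hl⟩ := exists_hom_of_degree_one χ.2 hd1
    have hirr : IsIrrCharacter G (fun g => (l g : ℂ) * (μ : G → ℂ) g) :=
      isIrrCharacter_mul_of_norm μ.2 (IsIrrCharacter.isCharacter (isIrrCharacter_linear l))
        (norm_hom_apply l)
    have h1 : classInner (μ : G → ℂ) (fun g => (l g : ℂ) * (μ : G → ℂ) g) ≠ 0 := by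
      have h3 : classInner Q (χ : G → ℂ) ≠ 0 := by rw [hqin]; exact_mod_cast hqχ
      convert h3 using 1
      simp only [Q, classInner, hl, map_mul]
      congr 1
      exact sum_congr rfl fun g _ => by ring
    have h4 : (μ : G → ℂ) = fun g => (l g : ℂ) * (μ : G → ℂ) g := by
      by_contra hne
      exact h1 (classInner_eq_zero_of_ne μ.2 hirr hne)
    have h5 := hprim l fun g => by rw [mul_comm]; exact (congrFun h4 g).symm
    refine hχ (Subtype.ext (funext fun g => ?_))
    rw [hl, h5, trivIrr_apply]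
    simp
  have hprod : IsCharacter G ((η : G → ℂ) * (μ : G → ℂ)) :=
    isCharacter_mul (IsIrrCharacter.isCharacter η.2) (IsIrrCharacter.isCharacter μ.2)
  have hinner : classInner ((η : G → ℂ) * (μ : G → ℂ)) ((η : G → ℂ) * (μ : G → ℂ))
      = ((∑ χ : IrrCharacter G, a χ * q χ : ℕ) : ℂ) := by
    have e : classInner ((η : G → ℂ) * (μ : G → ℂ)) ((η : G → ℂ) * (μ : G → ℂ))
        = classInner P Q := by
      simp only [P, Q, classInner, Pi.mul_apply, map_mul, Complex.conj_conj]
      congr 1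
      exact sum_congr rfl fun g _ => by ring
    rw [e, ha, classInner_sum_left]
    simp only [classInner_smul_left, Nat.cast_sum, Nat.cast_mul]
    refine sum_congr rfl fun χ _ => ?_
    rw [classInner_conj_symm, hqin, Complex.conj_natCast]
  obtain ⟨χ₀, hχ₀, haχ, hqχ⟩ : ∃ χ₀, χ₀ ≠ trivIrr G ∧ a χ₀ ≠ 0 ∧ q χ₀ ≠ 0 := by
    by_contra hc
    push Not at hc
    have h1 : (∑ χ : IrrCharacter G, a χ * q χ) = 1 := by
      rw [sum_eq_single (trivIrr G) (fun χ _ hχ => by
        by_cases e : a χ = 0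
        · rw [e, zero_mul]
        · rw [hc χ hχ e, mul_zero]) (fun e => absurd (mem_univ _) e), ha0, hq0]
    have hirr := (isIrrCharacter_iff_norm_one hprod).2 (by rw [hinner, h1, Nat.cast_one])
    have h3 := hb ⟨_, hirr⟩
    have h4 : charDegree ((η : G → ℂ) * (μ : G → ℂ)) = β * 2 := by
      rw [charDegree, Pi.mul_apply, charDegree_one, charDegree_one, hηd, h2, ← Nat.cast_mul,
        Complex.natCast_re, Nat.floor_natCast]
    have h5 : charDegree ((η : G → ℂ) * (μ : G → ℂ)) ≤ b := h3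
    omega
  have hd3 : q χ₀ = 1 ∧ charDegree (χ₀ : G → ℂ) = 3 ∧
      ∀ χ, χ ≠ trivIrr G → χ ≠ χ₀ → q χ = 0 := by
    rw [← add_sum_erase _ _ (mem_univ (trivIrr G)),
      ← add_sum_erase _ _ (mem_erase.2 ⟨hχ₀, mem_univ χ₀⟩), hq0] at hdegQ
    have htd : charDegree (trivIrr G : G → ℂ) = 1 := by
      have := charDegree_one (trivIrr G)
      rw [trivIrr_apply] at this
      exact_mod_cast this.symm
    rw [htd, one_mul] at hdegQ
    have h3 := hnolin χ₀ hχ₀ hqχ
    have h5 : ∀ χ, χ ≠ trivIrr G → χ ≠ χ₀ → q χ = 0 := by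
      intro χ hχ hχ'
      by_contra hne
      have h6 := hnolin χ hχ hne
      have h7 := single_le_sum (f := fun χ : IrrCharacter G => q χ * charDegree (χ : G → ℂ))
        (fun _ _ => Nat.zero_le _) (mem_erase.2 ⟨hχ', mem_erase.2 ⟨hχ, mem_univ χ⟩⟩)
      have h8 : charDegree (χ : G → ℂ) ≤ q χ * charDegree (χ : G → ℂ) :=
        Nat.le_mul_of_pos_left _ (Nat.pos_of_ne_zero hne)
      have h9 : charDegree (χ₀ : G → ℂ) ≤ q χ₀ * charDegree (χ₀ : G → ℂ) :=
        Nat.le_mul_of_pos_left _ (Nat.pos_of_ne_zero hqχ)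
      omega
    rw [sum_eq_zero fun χ hχ => by
      rw [h5 χ (mem_erase.1 (mem_erase.1 hχ).2).1 (mem_erase.1 hχ).1, zero_mul]] at hdegQ
    have h10 : q χ₀ * charDegree (χ₀ : G → ℂ) = 3 := by omega
    have h11 : q χ₀ = 1 := by
      rcases (Nat.dvd_prime Nat.prime_three).1 ⟨_, h10.symm⟩ with e | e
      · exact e
      · rw [e] at h10; omega
    rw [h11, one_mul] at h10
    exact ⟨h11, h10, h5⟩
  -- restrict to `V`
  have hres' : ∀ (c : IrrCharacter G), ∃ n : ℕ,
      classInner (fun v : V => (c : G → ℂ) v) (trivIrr V : V → ℂ) = n := fun c =>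
    IsCharacter.exists_classInner_eq_nat
      (CfsgLib.Coherence.isCharacter_comp (IsIrrCharacter.isCharacter c.2) V.subtype) (trivIrr V)
  choose n hn using hres'
  have hsplit : ∀ (R : G → ℂ) (m : IrrCharacter G → ℕ),
      R = ∑ χ : IrrCharacter G, (m χ : ℂ) • (χ : G → ℂ) →
      classInner (fun v : V => R v) (trivIrr V : V → ℂ)
        = ((∑ χ : IrrCharacter G, m χ * n χ : ℕ) : ℂ) := by
    intro R m hR
    rw [show (fun v : V => R v) = ∑ χ : IrrCharacter G, (m χ : ℂ) • fun v : V => (χ : G → ℂ) v from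
      funext fun v => by simp [hR, Finset.sum_apply], classInner_sum_left]
    simp only [classInner_smul_left, hn, Nat.cast_sum, Nat.cast_mul]
  have hn0 : n (trivIrr G) = 1 := by
    have := hn (trivIrr G)
    rw [show (fun v : V => (trivIrr G : G → ℂ) v) = (trivIrr V : V → ℂ) from funext fun v => by
      rw [trivIrr_apply, trivIrr_apply], classInner_self_of_isIrr (trivIrr V).2] at this
    exact_mod_cast this.symm
  have hPV : ∑ χ : IrrCharacter G, a χ * n χ = 1 := by
    have h1 := hsplit P a ha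
    have h3 : classInner (fun v : V => P v) (trivIrr V : V → ℂ) = 1 := by
      refine Eq.trans ?_ (classInner_self_of_isIrr φ.2)
      simp [classInner, trivIrr_apply, P, hres]
    exact_mod_cast h1.symm.trans h3
  have hQV : ∑ χ : IrrCharacter G, q χ * n χ = 1 + n χ₀ := by
    rw [← add_sum_erase _ _ (mem_univ (trivIrr G)),
      ← add_sum_erase _ _ (mem_erase.2 ⟨hχ₀, mem_univ χ₀⟩), hq0, hn0, hd3.1,
      sum_eq_zero fun χ hχ => by
        rw [hd3.2.2 χ (mem_erase.1 (mem_erase.1 hχ).2).1 (mem_erase.1 hχ).1, zero_mul]]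
    ring
  have hn1 : n χ₀ = 0 := by
    by_contra hne
    rw [← add_sum_erase _ _ (mem_univ (trivIrr G)),
      ← add_sum_erase _ _ (mem_erase.2 ⟨hχ₀, mem_univ χ₀⟩), ha0, hn0] at hPV
    have := Nat.mul_pos (Nat.pos_of_ne_zero haχ) (Nat.pos_of_ne_zero hne)
    omega
  have hμV : classInner (fun v : V => (μ : G → ℂ) v) (fun v : V => (μ : G → ℂ) v) = 1 := by
    have h1 := hsplit Q q hq
    rw [hQV, hn1, add_zero, Nat.cast_one] at h1
    refine Eq.trans ?_ h1
    simp [classInner, trivIrr_apply, Q]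
  have hirr := (isIrrCharacter_iff_norm_one
    (CfsgLib.Coherence.isCharacter_comp (IsIrrCharacter.isCharacter μ.2) V.subtype)).2 hμV
  have h3 := hV ⟨_, hirr⟩ (fun e => one_ne_zero (hμV.symm.trans e))
  exact h3.ne rfl

end CfsgLib.CharDegreesTheory.DegreeBound
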